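import Mathlib
import Cfsg.Prelude.Def_Sporadic_a
import Cfsg.Agent.Lib.Steiner.Basic

/-! Checked search trees for the uniqueness of small Steiner systems. -/

set_option autoImplicit false

namespace Cfsg.Lib.SteinerCert

open Finset

variable {n : ℕ}

/-- The set of points of a mask. -/
def toF (n b : ℕ) : Finset (Fin n) := univ.filter fun i => b.testBit i.val

theorem mem_toF {b : ℕ} {i : Fin n} : i ∈ toF n b ↔ b.testBit i.val = true := by simp [toF]

mutual
/-- A search tree. -/
inductive Tree where
  | leaf (p : List ℕ)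
  | br (S : ℕ) (kids : Kids)
/-- The alternatives at a branching point. -/
inductive Kids where
  | nil
  | go (T : Tree) (rest : Kids)
  | conf (j : ℕ) (rest : Kids)
  | sym (p : List ℕ) (y : ℕ) (rest : Kids)
end

/-- The point image given by a list. -/
def appL (p : List ℕ) (i : ℕ) : ℕ := p.getD i 0

/-- The list is a permutation of the first `n` numbers. -/
def isPerm (n : ℕ) (p : List ℕ) : Bool :=
  (List.range n).all fun i => decide (appL p i < n) && ((List.range i).all fun j => decide (appL p j ≠ appL p i))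

/-- The image of `a` is `b`. -/
def mapsTo (n : ℕ) (p : List ℕ) (a b : ℕ) : Bool :=
  (List.range n).all fun i => a.testBit i == b.testBit (appL p i)

/-- The number of points of a mask. -/
def cnt (n b : ℕ) : ℕ := (List.range n).countP fun i => b.testBit i

theorem card_toF (b : ℕ) : (toF n b).card = cnt n b := by
  rw [toF, cnt, List.countP_eq_length_filter,
    ← List.toFinset_card_of_nodup (List.nodup_range.filter _)]
  rw [← Finset.card_map Fin.valEmbedding]
  congr 1
  ext i
  simp only [Finset.mem_map, Finset.mem_filter, Finset.mem_univ, true_and, List.mem_toFinset, List.mem_filter,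
    List.mem_range, Fin.valEmbedding_apply]
  exact ⟨fun ⟨a, ha, e⟩ => e ▸ ⟨a.isLt, ha⟩, fun ⟨hi, ht⟩ => ⟨⟨i, hi⟩, ht, rfl⟩⟩

theorem toF_inter (a b : ℕ) : toF n a ∩ toF n b = toF n (a &&& b) := by
  ext i; simp [mem_toF, Nat.testBit_and]

theorem nodup_toF {L : List ℕ} (h : L.Nodup) (hlt : (L.all fun a => decide (a < 2 ^ n)) = true) :
    (L.map (toF n)).Nodup := by
  simp only [List.all_eq_true, decide_eq_true_eq] at hlt
  refine h.map_on fun a ha b hb e => Nat.eq_of_testBit_eq fun i => ?_
  by_cases hi : i < n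
  · have := Finset.ext_iff.1 e ⟨i, hi⟩
    simp only [mem_toF] at this
    exact Bool.eq_iff_iff.2 this
  · rw [Nat.testBit_lt_two_pow ((hlt a ha).trans_le (Nat.pow_le_pow_right two_pos (not_lt.1 hi))),
      Nat.testBit_lt_two_pow ((hlt b hb).trans_le (Nat.pow_le_pow_right two_pos (not_lt.1 hi)))]

/-- Distinct masks of bounded size. -/
def distinct (n : ℕ) (L : List ℕ) : Bool := decide L.Nodup && L.all fun a => decide (a < 2 ^ n)

theorem distinct_spec {L : List ℕ} (h : distinct n L = true) : (L.map (toF n)).Nodup := by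
  simp only [distinct, Bool.and_eq_true, decide_eq_true_eq] at h
  exact nodup_toF h.1 h.2

mutual
/-- The check of a tree. -/
def check (n t : ℕ) (std : List ℕ) : List ℕ → Tree → Bool
  | L, .leaf p => isPerm n p && decide (L.length = std.length) && distinct n L &&
      L.all fun a => std.any fun b => mapsTo n p a b
  | L, .br S kids => decide (cnt n S = t) &&
      checkKids n t std L S ((List.range n).filter fun x => !S.testBit x) [] kids
/-- The check of the alternatives. -/
def checkKids (n t : ℕ) (std : List ℕ) : List ℕ → ℕ → List ℕ → List ℕ → Kids → Bool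
  | _, _, xs, _, .nil => xs.isEmpty
  | L, S, xs, done, .go T rest =>
      match xs with
      | [] => false
      | x :: xs => check n t std (L ++ [S ||| 2 ^ x]) T && checkKids n t std L S xs (x :: done) rest
  | L, S, xs, done, .conf j rest =>
      match xs with
      | [] => false
      | x :: xs => decide (j < L.length) &&
          decide (t ≤ cnt n (L.getD j 0 &&& (S ||| 2 ^ x))) &&
          decide (cnt n (L.getD j 0 &&& (S ||| 2 ^ x)) < cnt n (S ||| 2 ^ x)) && checkKids n t std L S xs (x :: done) rest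
  | L, S, xs, done, .sym p y rest =>
      match xs with
      | [] => false
      | x :: xs => isPerm n p && done.contains y && decide (appL p x = y) && mapsTo n p S S &&
          (L.all fun b => L.any fun a => mapsTo n p a b) && checkKids n t std L S xs (x :: done) rest
end

/-- The set system of a list of masks. -/
def sysOf (n : ℕ) (L : List ℕ) : Set (Finset (Fin n)) := {s | ∃ b ∈ L, toF n b = s}

/-- Every system containing `L` is isomorphic to the standard one. -/
def Good (n t N : ℕ) (std L : List ℕ) : Prop :=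
  ∀ B : Set (Finset (Fin n)), Cfsg.IsSteinerSystem t (t + 1) B → B.ncard = N → sysOf n L ⊆ B →
    ∃ π : Equiv.Perm (Fin n), (fun b => b.image π) '' B = sysOf n std

theorem toPerm {p : List ℕ} (h : isPerm n p = true) :
    ∃ π : Equiv.Perm (Fin n), ∀ i : Fin n, (π i).val = appL p i.val := by
  simp only [isPerm, List.all_eq_true, List.mem_range, Bool.and_eq_true, decide_eq_true_eq] at h
  have hinj : Function.Injective (fun i : Fin n => (⟨appL p i.val, (h _ i.isLt).1⟩ : Fin n)) := by
    intro i j hij
    have hij' : appL p i.val = appL p j.val := congrArg Fin.val hij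
    rcases lt_trichotomy i.val j.val with hlt | heq | hgt
    · exact absurd hij' ((h _ j.isLt).2 _ hlt)
    · exact Fin.ext heq
    · exact absurd hij'.symm ((h _ i.isLt).2 _ hgt)
  exact ⟨Equiv.ofBijective _ ⟨hinj, Finite.surjective_of_injective hinj⟩, fun i => rfl⟩

theorem image_eq {p : List ℕ} {π : Equiv.Perm (Fin n)} (hπ : ∀ i : Fin n, (π i).val = appL p i.val) {a b : ℕ}
    (h : mapsTo n p a b = true) : (toF n a).image π = toF n b := by
  simp only [mapsTo, List.all_eq_true, List.mem_range, beq_iff_eq] at h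
  ext j
  obtain ⟨i, rfl⟩ := π.surjective j
  rw [Finset.mem_image]
  constructor
  · rintro ⟨i', hi', e⟩
    obtain rfl := π.injective e
    rw [mem_toF, hπ, ← h _ i'.isLt]
    exact mem_toF.1 hi'
  · intro hj
    rw [mem_toF, hπ, ← h _ i.isLt] at hj
    exact ⟨i, mem_toF.2 hj, rfl⟩

theorem steiner_image {t k : ℕ} {α β : Type*} [DecidableEq α] [DecidableEq β] (e : α ≃ β) {B : Set (Finset α)}
    (hB : Cfsg.IsSteinerSystem t k B) : Cfsg.IsSteinerSystem t k ((fun b => b.image e) '' B) := by
  constructor
  · rintro _ ⟨b, hb, rfl⟩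
    rw [Finset.card_image_of_injective _ e.injective]; exact hB.1 b hb
  · intro s hs
    obtain ⟨b, ⟨hb, hsb⟩, huniq⟩ := hB.2 (s.image e.symm) (by rw [Finset.card_image_of_injective _ e.symm.injective, hs])
    have hsb' : s ⊆ b.image e := fun x hx =>
      Finset.mem_image.2 ⟨e.symm x, hsb (Finset.mem_image_of_mem _ hx), e.apply_symm_apply x⟩
    refine ⟨b.image e, ⟨⟨b, hb, rfl⟩, hsb'⟩, ?_⟩
    rintro _ ⟨⟨c, hc, rfl⟩, hsc⟩
    rw [huniq c ⟨hc, fun x hx => ?_⟩]
    obtain ⟨y, hy, rfl⟩ := Finset.mem_image.1 hx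
    obtain ⟨z, hz, hzy⟩ := Finset.mem_image.1 (hsc hy)
    rwa [← hzy, e.symm_apply_apply]

theorem toF_or (S : ℕ) (x : Fin n) : toF n (S ||| 2 ^ x.val) = insert x (toF n S) := by
  ext i
  rw [mem_toF, Finset.mem_insert, mem_toF, Nat.testBit_or, Nat.testBit_two_pow, Bool.or_eq_true, decide_eq_true_eq,
    Fin.ext_iff, or_comm, eq_comm]

theorem good_branch {t N : ℕ} {std L : List ℕ} {S : ℕ} (hS : (toF n S).card = t)
    (hkids : ∀ x < n, S.testBit x = false → Good n t N std (L ++ [S ||| 2 ^ x])) : Good n t N std L := by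
  intro B hB hN hL
  obtain ⟨b, ⟨hb, hSb⟩, -⟩ := hB.2 _ hS
  obtain ⟨x, hxb, hxS⟩ : ∃ x ∈ b, x ∉ toF n S :=
    Finset.exists_mem_notMem_of_card_lt_card (by rw [hS, hB.1 b hb]; omega)
  have hbeq : toF n (S ||| 2 ^ x.val) = b := by
    rw [toF_or]
    exact Finset.eq_of_subset_of_card_le (Finset.insert_subset hxb hSb)
      (by rw [hB.1 b hb, Finset.card_insert_of_notMem hxS, hS])
  refine hkids x.val x.isLt (by simpa [mem_toF] using hxS) B hB hN ?_
  rintro s ⟨c, hc, rfl⟩
  rcases List.mem_append.1 hc with h | h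
  · exact hL ⟨c, h, rfl⟩
  · rw [List.mem_singleton.1 h, hbeq]; exact hb

theorem good_conflict {t N : ℕ} {std L : List ℕ} {c j : ℕ} (hj : j < L.length)
    (hc : t ≤ (toF n (L.getD j 0) ∩ toF n c).card) (hne : toF n (L.getD j 0) ≠ toF n c) :
    Good n t N std (L ++ [c]) := by
  intro B hB _ hL
  exfalso
  obtain ⟨u, hu, hucard⟩ := Finset.exists_subset_card_eq hc
  obtain ⟨b, -, huniq⟩ := hB.2 u hucard
  have hm : L.getD j 0 ∈ L ++ [c] := List.mem_append_left _ (by rw [List.getD_eq_getElem _ _ hj]; exact List.getElem_mem hj)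
  refine hne ((huniq _ ⟨hL ⟨_, hm, rfl⟩, hu.trans Finset.inter_subset_left⟩).trans
    (huniq _ ⟨hL ⟨c, List.mem_append_right _ (List.mem_singleton_self c), rfl⟩, hu.trans Finset.inter_subset_right⟩).symm)

theorem good_sym {t N : ℕ} {std L : List ℕ} {S : ℕ} {p : List ℕ} (hp : isPerm n p = true) (hSS : mapsTo n p S S = true)
    (hLL : (L.all fun b => L.any fun a => mapsTo n p a b) = true) {x : ℕ} (hx : x < n)
    (hy : Good n t N std (L ++ [S ||| 2 ^ appL p x])) : Good n t N std (L ++ [S ||| 2 ^ x]) := by
  intro B hB hN hL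
  obtain ⟨π, hπ⟩ := toPerm hp
  simp only [List.all_eq_true, List.any_eq_true] at hLL
  obtain ⟨ρ, hρ⟩ := hy _ (steiner_image π hB)
    (by rw [Set.ncard_image_of_injective _ (Finset.image_injective π.injective), hN]) (by
      rintro s ⟨c, hc, rfl⟩
      rcases List.mem_append.1 hc with h | h
      · obtain ⟨a, ha, hab⟩ := hLL c h
        exact ⟨toF n a, hL ⟨a, List.mem_append_left _ ha, rfl⟩, image_eq hπ hab⟩
      · refine ⟨toF n (S ||| 2 ^ x), hL ⟨_, List.mem_append_right _ (List.mem_singleton_self _), rfl⟩, ?_⟩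
        rw [List.mem_singleton.1 h, ← hπ ⟨x, hx⟩, toF_or, show S ||| 2 ^ x = S ||| 2 ^ (⟨x, hx⟩ : Fin n).val from rfl,
          toF_or]
        show (insert (⟨x, hx⟩ : Fin n) (toF n S)).image π = _
        rw [Finset.image_insert, image_eq hπ hSS])
  refine ⟨π.trans ρ, ?_⟩
  rw [← hρ, Set.image_image]
  exact Set.image_congr fun b _ => by simp [Finset.image_image, Equiv.coe_trans]

theorem good_leaf {t N : ℕ} {std L : List ℕ} (hstd : std.length = N) (hnd : (std.map (toF n)).Nodup) {p : List ℕ}
    (hp : isPerm n p = true) (hlen : L.length = std.length) (hL' : (L.map (toF n)).Nodup)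
    (hall : (L.all fun a => std.any fun b => mapsTo n p a b) = true) : Good n t N std L := by
  intro B _ hN hL
  obtain ⟨π, hπ⟩ := toPerm hp
  simp only [List.all_eq_true, List.any_eq_true] at hall
  have hset : ∀ M : List ℕ, (M.map (toF n)).Nodup → (sysOf n M).ncard = M.length := fun M hM => by
    have : sysOf n M = ((M.map (toF n)).toFinset : Set (Finset (Fin n))) := by
      ext s; simp [sysOf]
    rw [this, Set.ncard_coe_finset, List.toFinset_card_of_nodup hM, List.length_map]
  have hB : sysOf n L = B := Set.eq_of_subset_of_ncard_le hL (by rw [hN, hset L hL', hlen, hstd]) (Set.toFinite _)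
  refine ⟨π, Set.eq_of_subset_of_ncard_le ?_ ?_ (Set.toFinite _)⟩
  · rw [← hB]
    rintro _ ⟨_, ⟨a, ha, rfl⟩, rfl⟩
    obtain ⟨b, hb, hab⟩ := hall a ha
    exact ⟨b, hb, (image_eq hπ hab).symm⟩
  · rw [Set.ncard_image_of_injective _ (Finset.image_injective π.injective), hN, hset std hnd, hstd]

mutual
theorem sound {t N : ℕ} {std : List ℕ} (hstd : std.length = N) (hnd : (std.map (toF n)).Nodup) :
    ∀ (L : List ℕ) (T : Tree), check n t std L T = true → Good n t N std L
  | L, .leaf p, h => by
    simp only [check, Bool.and_eq_true, decide_eq_true_eq] at h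
    exact good_leaf hstd hnd h.1.1.1 h.1.1.2 (distinct_spec h.1.2) h.2
  | L, .br S kids, h => by
    simp only [check, Bool.and_eq_true, decide_eq_true_eq] at h
    refine good_branch (by rw [card_toF]; exact h.1) fun x hx hxS => ?_
    exact soundKids hstd hnd L S _ [] kids h.2 (fun y hy => (List.mem_range.1 (List.mem_filter.1 hy).1))
      (fun y hy => absurd hy List.not_mem_nil) x (Or.inl (List.mem_filter.2 ⟨List.mem_range.2 hx, by simp [hxS]⟩))
theorem soundKids {t N : ℕ} {std : List ℕ} (hstd : std.length = N) (hnd : (std.map (toF n)).Nodup) :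
    ∀ (L : List ℕ) (S : ℕ) (xs done : List ℕ) (K : Kids), checkKids n t std L S xs done K = true →
      (∀ x ∈ xs, x < n) → (∀ x ∈ done, Good n t N std (L ++ [S ||| 2 ^ x])) →
      ∀ x, x ∈ xs ∨ x ∈ done → Good n t N std (L ++ [S ||| 2 ^ x])
  | L, S, xs, done, .nil, h, _, hd => by
    simp only [checkKids, List.isEmpty_iff] at h
    intro x hx
    rcases hx with hx | hx
    · rw [h] at hx; exact absurd hx List.not_mem_nil
    · exact hd x hx
  | L, S, [], done, .go T rest, h, _, _ => by simp [checkKids] at h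
  | L, S, x :: xs, done, .go T rest, h, hlt, hd => by
    simp only [checkKids, Bool.and_eq_true] at h
    have hx := sound hstd hnd _ T h.1
    intro y hy
    refine soundKids hstd hnd L S xs (x :: done) rest h.2 (fun z hz => hlt z (List.mem_cons_of_mem _ hz))
      (fun z hz => (List.mem_cons.1 hz).elim (fun e => e ▸ hx) (hd z)) y ?_
    simp only [List.mem_cons] at hy ⊢; tauto
  | L, S, [], done, .conf j rest, h, _, _ => by simp [checkKids] at h
  | L, S, x :: xs, done, .conf j rest, h, hlt, hd => by
    simp only [checkKids, Bool.and_eq_true, decide_eq_true_eq] at h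
    have hx : Good n t N std (L ++ [S ||| 2 ^ x]) := good_conflict h.1.1.1 (by rw [toF_inter, card_toF]; exact h.1.1.2) (fun e => by
      have h2 := h.1.2; rw [← card_toF, ← toF_inter, e, Finset.inter_self, card_toF] at h2; exact lt_irrefl _ h2)
    intro y hy
    refine soundKids hstd hnd L S xs (x :: done) rest h.2 (fun z hz => hlt z (List.mem_cons_of_mem _ hz))
      (fun z hz => (List.mem_cons.1 hz).elim (fun e => e ▸ hx) (hd z)) y ?_
    simp only [List.mem_cons] at hy ⊢; tauto
  | L, S, [], done, .sym p z rest, h, _, _ => by simp [checkKids] at h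
  | L, S, x :: xs, done, .sym p z rest, h, hlt, hd => by
    simp only [checkKids, Bool.and_eq_true, decide_eq_true_eq] at h
    have hx : Good n t N std (L ++ [S ||| 2 ^ x]) :=
      good_sym h.1.1.1.1.1 h.1.1.2 h.1.2 (hlt x List.mem_cons_self)
        (h.1.1.1.2 ▸ hd z (List.contains_iff_mem.1 h.1.1.1.1.2))
    intro y hy
    refine soundKids hstd hnd L S xs (x :: done) rest h.2 (fun w hw => hlt w (List.mem_cons_of_mem _ hw))
      (fun w hw => (List.mem_cons.1 hw).elim (fun e => e ▸ hx) (hd w)) y ?_
    simp only [List.mem_cons] at hy ⊢; tauto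
end

/-- Uniqueness from a checked tree. -/
theorem unique {t N : ℕ} {std : List ℕ} {T : Tree} (hnd : (std.map (toF n)).Nodup) (hlen : std.length = N)
    (hN : N * (t + 1).choose t = n.choose t) (hT : check n t std [] T = true) {α : Type*} [Fintype α] [DecidableEq α]
    (hα : Fintype.card α = n) {B : Set (Finset α)} (hB : Cfsg.IsSteinerSystem t (t + 1) B) :
    ∃ e : α ≃ Fin n, (fun b => b.image e) '' B = sysOf n std := by
  classical
  let e0 : α ≃ Fin n := Fintype.equivFinOfCardEq hα
  have hB' := steiner_image e0 hB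
  have hcard : ((fun b => b.image e0) '' B).ncard = N := by
    have h0 := Cfsg.Lib.Steiner.through_mul hB' ∅ (Nat.zero_le _)
    simp at h0
    rw [Cfsg.Lib.Steiner.ncard_eq_blocks]
    apply Nat.eq_of_mul_eq_mul_right (Nat.succ_pos t)
    rw [Nat.choose_succ_self_right] at hN
    rw [Nat.succ_eq_add_one, hN, h0]
  obtain ⟨π, hπ⟩ := sound hlen hnd [] T hT _ hB' hcard (by rintro s ⟨b, hb, -⟩; exact absurd hb List.not_mem_nil)
  refine ⟨e0.trans π, ?_⟩
  rw [← hπ, Set.image_image]
  exact Set.image_congr fun b _ => by simp [Finset.image_image, Equiv.coe_trans]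

end Cfsg.Lib.SteinerCert
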