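import Mathlib
import Cfsg.Agent.Lib.Code.AbstractGolay
import Cfsg.Agent.Lib.SteinerCert.Check
import Cfsg.Agent.Lib.Golay.Code
import Cfsg.Agent.Lib.Golay.Count

/-! Checked search for the uniqueness of the self-dual code of length 24 without words of weight 4. -/

set_option autoImplicit false

namespace Cfsg.Lib.SteinerCert.Code24

open Finset Cfsg Cfsg.Lib.Code.AbstractGolay

local notation "V" => (Fin 24 → ZMod 2)

/-- The reason for discarding a candidate. -/
inductive Kid where
  | go
  | conf (sel : ℕ)
  | sym (p : List ℕ) (d : ℕ)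

/-- The list is a permutation of the first 24 numbers. -/
def permOK (p : List ℕ) : Bool :=
  decide (p.length = 24) && decide (p.foldl (fun a i => a ||| 2 ^ i) 0 = 16777215)

/-- The sum of the selected masks. -/
def xorSel : List ℕ → ℕ → ℕ
  | [], _ => 0
  | w :: ws, c => (if c % 2 = 1 then w else 0) ^^^ xorSel ws (c / 2)

/-- The increasing triples of a list. -/
def triples (pts : List ℕ) : List (List ℕ) :=
  pts.flatMap fun i => (pts.filter fun j => decide (i < j)).flatMap fun j =>
    (pts.filter fun k => decide (j < k)).map fun k => [i, j, k]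

/-- The mask of a set of five points and a triple. -/
def maskOf (S : ℕ) (T : List ℕ) : ℕ := T.foldl (fun a i => a ||| 2 ^ i) S

/-- The candidates for the octad through five points. -/
def cands (L : List ℕ) (S : ℕ) : List ℕ :=
  let pre := L.map fun b => (b, cnt 24 (b &&& S))
  ((triples ((List.range 24).filter fun x => !S.testBit x)).filter fun T =>
    pre.all fun bm => decide ((bm.2 + T.countP fun i => bm.1.testBit i) % 2 = 0) &&
      decide ((bm.2 + T.countP fun i => bm.1.testBit i) ≤ 4)).map (maskOf S)

/-- The check of one candidate, given the children that are settled. -/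
def kidOK (known : List (List ℕ)) (L dgood : List ℕ) : ℕ × Kid → Bool
  | (c, .go) => known.contains (L ++ [c])
  | (c, .conf sel) => decide (0 < cnt 24 (xorSel L sel ^^^ c)) && decide (cnt 24 (xorSel L sel ^^^ c) < 8)
  | (c, .sym p d) => permOK p && dgood.contains d && mapsTo 24 p c d &&
      L.all fun a => L.any fun b => mapsTo 24 p a b

/-- The hypotheses on the code. -/
structure Hyp (C : Submodule (ZMod 2) V) : Prop where
  dim : Module.finrank (ZMod 2) C = 12
  orth : ∀ v ∈ C, ∀ w ∈ C, ∑ i, v i * w i = 0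
  weight : ∀ w ∈ C, w ≠ 0 → 8 ≤ hammingNorm w

/-- The code is equivalent to the Golay code. -/
def Iso (C : Submodule (ZMod 2) V) : Prop :=
  ∃ e : Fin 24 ≃ GolayPt, ∀ w : GolayPt → ZMod 2, w ∈ golayCode ↔ (fun i => w (e i)) ∈ C

/-- Every code containing the octads of `L` is equivalent to the Golay code. -/
def Good (L : List ℕ) : Prop :=
  ∀ C : Submodule (ZMod 2) V, Hyp C → (∀ b ∈ L, IsOctad C (toF 24 b)) → Iso C

theorem ind_xor (a b : ℕ) : ind (toF 24 (a ^^^ b)) = ind (toF 24 a) + ind (toF 24 b) := by
  funext i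
  simp only [ind, mem_toF, Pi.add_apply, Nat.testBit_xor]
  cases a.testBit i.val <;> cases b.testBit i.val <;> decide

theorem ind_empty : ind (toF 24 0) = (0 : V) := by
  funext i; simp [ind, mem_toF]

theorem xorSel_mem {C : Submodule (ZMod 2) V} : ∀ (L : List ℕ), (∀ b ∈ L, ind (toF 24 b) ∈ C) → ∀ sel,
    ind (toF 24 (xorSel L sel)) ∈ C
  | [], _, sel => by rw [xorSel, ind_empty]; exact C.zero_mem
  | w :: ws, h, sel => by
    rw [xorSel, ind_xor]
    refine C.add_mem ?_ (xorSel_mem ws (fun b hb => h b (List.mem_cons_of_mem _ hb)) _)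
    split
    · exact h w List.mem_cons_self
    · rw [ind_empty]; exact C.zero_mem

theorem testBit_maskOf : ∀ (T : List ℕ) (S j : ℕ),
    (maskOf S T).testBit j = true ↔ S.testBit j = true ∨ j ∈ T
  | [], S, j => by simp [maskOf]
  | i :: T, S, j => by
    rw [show maskOf S (i :: T) = maskOf (S ||| 2 ^ i) T from rfl, testBit_maskOf T]
    simp only [Nat.testBit_or, Nat.testBit_two_pow, Bool.or_eq_true, decide_eq_true_eq, List.mem_cons, eq_comm (a := i)]
    tauto

theorem inter_count {T : List ℕ} (hT : T.Nodup) (hlt : ∀ i ∈ T, i < 24) {S : ℕ}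
    (hd : ∀ i ∈ T, S.testBit i = false) (b : ℕ) :
    (toF 24 b ∩ toF 24 (maskOf S T)).card = cnt 24 (b &&& S) + T.countP fun i => b.testBit i := by
  classical
  have h2 : T.countP (fun i => b.testBit i) = ((univ : Finset (Fin 24)).filter fun i => i.val ∈ T ∧ b.testBit i.val = true).card := by
    rw [List.countP_eq_length_filter, ← List.toFinset_card_of_nodup (hT.filter _), ← Finset.card_map Fin.valEmbedding]
    congr 1
    ext j
    simp only [List.mem_toFinset, List.mem_filter, Finset.mem_map, Finset.mem_filter, Finset.mem_univ, true_and,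
      Fin.valEmbedding_apply]
    constructor
    · rintro ⟨h1, h2⟩; exact ⟨⟨j, hlt j h1⟩, ⟨h1, h2⟩, rfl⟩
    · rintro ⟨i, h, rfl⟩; exact h
  rw [← card_toF, ← toF_inter, h2, ← Finset.card_union_of_disjoint]
  · congr 1
    ext i
    simp only [Finset.mem_inter, Finset.mem_union, mem_toF, testBit_maskOf, Finset.mem_filter, Finset.mem_univ, true_and]
    tauto
  · rw [Finset.disjoint_left]
    intro i h1 h2
    simp only [Finset.mem_inter, mem_toF] at h1
    simp only [Finset.mem_filter, Finset.mem_univ, true_and] at h2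
    rw [hd _ h2.1] at h1
    exact Bool.false_ne_true h1.2

theorem good_branch {L : List ℕ} {S : ℕ} (hS : cnt 24 S = 5) (hSL : ∀ b ∈ L, cnt 24 (b &&& S) < 5)
    (hk : ∀ c ∈ cands L S, Good (L ++ [c])) : Good L := by
  intro C hC hL
  classical
  obtain ⟨O, hO, hSO⟩ := exists_octad hC.dim hC.weight (s := toF 24 S) (by rw [card_toF, hS])
  have hd : (O \ toF 24 S).card = 3 := by rw [card_sdiff_of_subset hSO, hO.2, card_toF, hS]
  set f := (O \ toF 24 S).orderEmbOfFin hd with hf
  set T : List ℕ := [(f 0).val, (f 1).val, (f 2).val] with hT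
  have hmono : (f 0).val < (f 1).val ∧ (f 1).val < (f 2).val :=
    ⟨f.strictMono (by decide), f.strictMono (by decide)⟩
  have hfm : ∀ i, f i ∈ O \ toF 24 S := fun i => Finset.orderEmbOfFin_mem _ hd i
  have hTS : ∀ i ∈ T, i < 24 ∧ S.testBit i = false := by
    intro i hi
    simp only [hT, List.mem_cons, List.not_mem_nil, or_false] at hi
    have h : ∀ k, (f k).val < 24 ∧ S.testBit (f k).val = false := fun k =>
      ⟨(f k).isLt, by simpa [mem_toF] using (Finset.mem_sdiff.1 (hfm k)).2⟩
    rcases hi with rfl | rfl | rfl <;> exact h _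
  have hnd : T.Nodup := by
    simp only [hT, List.nodup_cons, List.mem_cons, List.not_mem_nil, or_false, List.nodup_nil, and_true, not_false_eq_true]
    omega
  have heq : toF 24 (maskOf S T) = O := by
    refine (Finset.eq_of_subset_of_card_le (fun i hi => ?_) ?_).symm
    · rw [mem_toF, testBit_maskOf]
      by_cases h : i ∈ toF 24 S
      · exact Or.inl (mem_toF.1 h)
      · right
        have hi' : i ∈ Set.range f := by
          rw [hf, Finset.range_orderEmbOfFin]; exact Finset.mem_sdiff.2 ⟨hi, h⟩
        obtain ⟨k, rfl⟩ := hi'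
        fin_cases k <;> simp [hT]
    · have h1 : toF 24 (maskOf S T) ⊆ toF 24 S ∪ (O \ toF 24 S) := by
        intro i hi
        rw [mem_toF, testBit_maskOf] at hi
        rcases hi with h | h
        · exact Finset.mem_union_left _ (mem_toF.2 h)
        · refine Finset.mem_union_right _ ?_
          simp only [hT, List.mem_cons, List.not_mem_nil, or_false] at h
          rcases h with h | h | h <;> exact (Fin.ext h : i = _) ▸ hfm _
      rw [Finset.union_sdiff_of_subset hSO] at h1
      exact Finset.card_le_card h1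
  refine hk (maskOf S T) ?_ C hC ?_
  · simp only [cands, List.mem_map, List.mem_filter, List.all_eq_true]
    refine ⟨T, ⟨?_, ?_⟩, rfl⟩
    · have hp : ∀ i ∈ T, i ∈ (List.range 24).filter fun x => !S.testBit x := fun i hi =>
        List.mem_filter.2 ⟨List.mem_range.2 (hTS i hi).1, by simp [(hTS i hi).2]⟩
      simp only [triples, List.mem_flatMap, List.mem_map, hT]
      exact ⟨_, hp _ (by simp [hT]), _, List.mem_filter.2 ⟨hp _ (by simp [hT]), by simpa using hmono.1⟩, _,
        List.mem_filter.2 ⟨hp _ (by simp [hT]), by simpa using hmono.2⟩, rfl⟩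
    · rintro _ ⟨b, hb, rfl⟩
      have hm : cnt 24 (b &&& S) + T.countP (fun i => b.testBit i) = (toF 24 b ∩ O).card := by
        rw [← heq, inter_count hnd (fun i hi => (hTS i hi).1) (fun i hi => (hTS i hi).2)]
      simp only [Bool.and_eq_true, decide_eq_true_eq, hm]
      have hb8 := hL b hb
      have hev := hC.orth _ hb8.1 _ hO.1
      rw [dot_eq, supp_ind, supp_ind, ZMod.natCast_eq_zero_iff_even] at hev
      refine ⟨Nat.even_iff.1 hev, ?_⟩
      by_contra hgt
      have hne : toF 24 b ≠ O := fun e => by
        have := hSL b hb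
        rw [← card_toF, ← toF_inter, e, Finset.inter_eq_right.2 hSO, card_toF, hS] at this
        omega
      obtain ⟨u, hu, hucard⟩ := Finset.exists_subset_card_eq (show 5 ≤ (toF 24 b ∩ O).card by omega)
      exact hne (octad_unique hC.weight hb8 hO (s := u) hucard.ge (hu.trans Finset.inter_subset_left)
        (hu.trans Finset.inter_subset_right))
  · intro b hb
    rcases List.mem_append.1 hb with h | h
    · exact hL b h
    · rw [List.mem_singleton.1 h, heq]; exact hO

theorem good_conflict {L : List ℕ} {c sel : ℕ} (h0 : 0 < cnt 24 (xorSel L sel ^^^ c))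
    (h8 : cnt 24 (xorSel L sel ^^^ c) < 8) : Good (L ++ [c]) := by
  intro C hC hL
  exfalso
  have hm : ind (toF 24 (xorSel L sel ^^^ c)) ∈ C := by
    rw [ind_xor]
    exact C.add_mem (xorSel_mem L (fun b hb => (hL b (List.mem_append_left _ hb)).1) sel)
      (hL c (List.mem_append_right _ (List.mem_singleton_self c))).1
  have h := small_weight hC.weight hm (by rw [supp_ind, card_toF]; omega)
  have h2 : supp (ind (toF 24 (xorSel L sel ^^^ c))) = (∅ : Finset (Fin 24)) := by
    rw [h]; ext i; simp [mem_supp]
  rw [supp_ind] at h2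
  rw [← card_toF, h2] at h0
  exact Nat.lt_irrefl _ h0

theorem toPerm24 {p : List ℕ} (h : permOK p = true) :
    ∃ π : Equiv.Perm (Fin 24), ∀ i : Fin 24, (π i).val = appL p i.val := by
  simp only [permOK, Bool.and_eq_true, decide_eq_true_eq] at h
  obtain ⟨hlen, hor⟩ := h
  have hmem : ∀ j : ℕ, (16777215 : ℕ).testBit j = true ↔ j ∈ p := fun j => by
    rw [← hor, show p.foldl (fun a i => a ||| 2 ^ i) 0 = maskOf 0 p from rfl, testBit_maskOf]
    simp
  have h24 : ∀ j : ℕ, (16777215 : ℕ).testBit j = decide (j < 24) := fun j => by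
    rw [show (16777215 : ℕ) = 2 ^ 24 - 1 by norm_num, Nat.testBit_two_pow_sub_one]
  have hlt : ∀ i : Fin 24, appL p i.val < 24 := fun i => by
    have hi : i.val < p.length := hlen.symm ▸ i.isLt
    have := (hmem (appL p i.val)).2 (by rw [appL, List.getD_eq_getElem _ _ hi]; exact List.getElem_mem hi)
    rw [h24, decide_eq_true_eq] at this
    exact this
  have hsurj : Function.Surjective (fun i : Fin 24 => (⟨appL p i.val, hlt i⟩ : Fin 24)) := fun j => by
    obtain ⟨k, hk, e⟩ := List.getElem_of_mem ((hmem j.val).1 (by rw [h24]; simp))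
    refine ⟨⟨k, hlen ▸ hk⟩, Fin.ext ?_⟩
    show appL p k = j.val
    rw [appL, List.getD_eq_getElem _ _ hk, e]
  exact ⟨Equiv.ofBijective _ ⟨Finite.injective_iff_surjective.2 hsurj, hsurj⟩, fun i => rfl⟩

theorem good_sym {L : List ℕ} {c d : ℕ} {p : List ℕ} (hp : permOK p = true) (hcd : mapsTo 24 p c d = true)
    (hLL : (L.all fun a => L.any fun b => mapsTo 24 p a b) = true) (hd : Good (L ++ [d])) : Good (L ++ [c]) := by
  intro C hC hL
  classical
  obtain ⟨π, hπ⟩ := toPerm24 hp
  simp only [List.all_eq_true, List.any_eq_true] at hLL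
  let f : V →ₗ[ZMod 2] V := LinearMap.funLeft (ZMod 2) (ZMod 2) π.symm
  have hfinj : Function.Injective f := LinearMap.funLeft_injective_of_surjective _ _ _ π.symm.surjective
  have hind : ∀ s : Finset (Fin 24), f (ind s) = ind (s.image π) := by
    intro s; funext i
    show ind s (π.symm i) = _
    simp [ind, Finset.mem_image, ← π.eq_symm_apply]
  have hsum : ∀ v w : V, ∑ i, f v i * f w i = ∑ i, v i * w i := fun v w =>
    Equiv.sum_comp π.symm fun i => v i * w i
  have hC' : Hyp (C.map f) := by
    refine ⟨?_, ?_, ?_⟩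
    · rw [← hC.dim]
      exact (Submodule.equivMapOfInjective f hfinj C).finrank_eq.symm
    · rintro _ ⟨v, hv, rfl⟩ _ ⟨w, hw, rfl⟩
      rw [hsum]; exact hC.orth v hv w hw
    · rintro _ ⟨v, hv, rfl⟩ hne
      have h8 := hC.weight v hv fun e => hne (by rw [e, map_zero])
      have : hammingNorm (f v) = hammingNorm v := by
        rw [hammingNorm_eq, hammingNorm_eq]
        rw [← Finset.card_image_of_injective (supp v) π.injective]
        congr 1; ext i; simp [mem_supp, f, LinearMap.funLeft_apply, Finset.mem_image, ← π.eq_symm_apply]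
      omega
  -- every member of the list is the image of a member
  have hmem : ∀ b ∈ L ++ [d], IsOctad (C.map f) (toF 24 b) := by
    have key : ∀ a b : ℕ, IsOctad C (toF 24 a) → mapsTo 24 p a b = true → IsOctad (C.map f) (toF 24 b) :=
      fun a b ha hab => by
        refine ⟨⟨_, ha.1, ?_⟩, ?_⟩
        · rw [hind, image_eq hπ hab]
        · rw [← image_eq hπ hab, Finset.card_image_of_injective _ π.injective]; exact ha.2
    intro b hb
    rcases List.mem_append.1 hb with h | h
    · let g : {a // a ∈ L.toFinset.image (toF 24)} → {a // a ∈ L.toFinset.image (toF 24)} := fun a =>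
        ⟨a.1.image π, by
          obtain ⟨a0, ha0, e⟩ := Finset.mem_image.1 a.2
          obtain ⟨b0, hb0, hab⟩ := hLL a0 (List.mem_toFinset.1 ha0)
          rw [← e, image_eq hπ hab]
          exact Finset.mem_image_of_mem _ (List.mem_toFinset.2 hb0)⟩
      have hg : Function.Injective g := fun x y e =>
        Subtype.ext (Finset.image_injective π.injective (congrArg Subtype.val e))
      obtain ⟨⟨a, ha⟩, e⟩ := Finite.surjective_of_injective hg
        ⟨toF 24 b, Finset.mem_image_of_mem _ (List.mem_toFinset.2 h)⟩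
      obtain ⟨a0, ha0, rfl⟩ := Finset.mem_image.1 ha
      have e' : (toF 24 a0).image π = toF 24 b := congrArg Subtype.val e
      have ho := hL a0 (List.mem_append_left _ (List.mem_toFinset.1 ha0))
      refine ⟨⟨_, ho.1, by rw [hind, e']⟩, ?_⟩
      rw [← e', Finset.card_image_of_injective _ π.injective]; exact ho.2
    · rw [List.mem_singleton.1 h]
      exact key c d (hL c (List.mem_append_right _ (List.mem_singleton_self c))) hcd
  obtain ⟨e, he⟩ := hd _ hC' hmem
  refine ⟨π.trans e, fun w => ?_⟩
  rw [he w, show (fun i => w (e i)) = f (fun i => w ((π.trans e) i)) from funext fun i => by simp [f, LinearMap.funLeft_apply]]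
  exact ⟨fun ⟨v, hv, hvw⟩ => hfinj hvw ▸ hv, fun h => ⟨_, h, rfl⟩⟩

/-- The numbering of the points. -/
def ptEquiv : Fin 24 ≃ GolayPt where
  toFun i := Golay.pt i.val
  invFun p := ⟨Golay.idx p, Golay.idx_lt p⟩
  left_inv i := Fin.ext (Golay.idx_pt i.isLt)
  right_inv p := Golay.pt_idx p

theorem good_leaf (hgolay : Module.finrank (ZMod 2) golayCode = 12) {L : List ℕ} {p sels : List ℕ}
    (hp : permOK p = true) (hlen : sels.length = Golay.codeGens.length)
    (h : ((sels.zip Golay.codeGens).all fun sg => mapsTo 24 p (xorSel L sg.1) sg.2) = true) : Good L := by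
  intro C hC hL
  obtain ⟨π, hπ⟩ := toPerm24 hp
  simp only [List.all_eq_true] at h
  set e := π.trans ptEquiv with he
  let f : (GolayPt → ZMod 2) →ₗ[ZMod 2] V := LinearMap.funLeft (ZMod 2) (ZMod 2) e
  have hfinj : Function.Injective f := LinearMap.funLeft_injective_of_surjective _ _ _ e.surjective
  have hgen : ∀ g ∈ Golay.codeGens, f (Golay.toWord g) ∈ C := by
    intro g hg
    obtain ⟨i, hi, rfl⟩ := List.getElem_of_mem hg
    have hz : (sels[i]'(hlen ▸ hi), Golay.codeGens[i]) ∈ sels.zip Golay.codeGens :=
      List.mem_iff_getElem.2 ⟨i, by rw [List.length_zip]; omega, by rw [List.getElem_zip]⟩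
    have hm := h _ hz
    have : f (Golay.toWord Golay.codeGens[i]) = ind (toF 24 (xorSel L (sels[i]'(hlen ▸ hi)))) := by
      funext j
      show Golay.toWord _ (Golay.pt (π j).val) = _
      simp only [mapsTo, List.all_eq_true, List.mem_range, beq_iff_eq] at hm
      rw [Golay.toWord, Golay.idx_pt (π j).isLt, hπ, ← hm j.val j.isLt]
      simp [ind, mem_toF]
    rw [this]
    exact xorSel_mem L (fun b hb => (hL b hb).1) _
  have hle : golayCode.map f ≤ C := by
    rintro _ ⟨w, hw, rfl⟩
    obtain ⟨n, hn, rfl⟩ := Golay.exists_mask hw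
    refine Golay.spanL_induction (P := fun n => f (Golay.toWord n) ∈ C) Golay.codeGens ?_ ?_ n ((Golay.inCode_iff n).1 hn)
    · rw [Golay.toWord_zero, map_zero]; exact C.zero_mem
    · intro g hg a ha; rw [Golay.toWord_xor, map_add]; exact C.add_mem ha (hgen g hg)
  have heq : golayCode.map f = C := Submodule.eq_of_le_of_finrank_le hle (by
    rw [hC.dim, ← (Submodule.equivMapOfInjective f hfinj golayCode).finrank_eq, hgolay])
  refine ⟨e, fun w => ?_⟩
  rw [← heq]
  exact ⟨fun hw => ⟨w, hw, rfl⟩, fun ⟨v, hv, hvw⟩ => hfinj hvw ▸ hv⟩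

theorem node_good {known : List (List ℕ)} (hknown : ∀ K ∈ known, Good K) {L : List ℕ} {S : ℕ} {dgood : List ℕ}
    {items : List (ℕ × Kid)}
    (hS : (decide (cnt 24 S = 5) && L.all (fun b => decide (cnt 24 (b &&& S) < 5)) &&
      dgood.all fun d => known.contains (L ++ [d])) = true)
    (hc : cands L S = items.map Prod.fst) (hk : items.all (kidOK known L dgood) = true) : Good L := by
  simp only [Bool.and_eq_true, decide_eq_true_eq, List.all_eq_true] at hS
  refine good_branch hS.1.1 hS.1.2 fun c hcm => ?_
  rw [hc, List.mem_map] at hcm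
  obtain ⟨⟨c', k⟩, hk', rfl⟩ := hcm
  have h := List.all_eq_true.1 hk _ hk'
  cases k with
  | go => exact hknown _ (List.contains_iff_mem.1 h)
  | conf sel =>
    simp only [kidOK, Bool.and_eq_true, decide_eq_true_eq] at h
    exact good_conflict h.1 h.2
  | sym p d =>
    simp only [kidOK, Bool.and_eq_true] at h
    exact good_sym h.1.1.1 h.1.2 h.2 (hknown _ (List.contains_iff_mem.1 (hS.2 d (List.contains_iff_mem.1 h.1.1.2))))

theorem leaf_good (hgolay : Module.finrank (ZMod 2) golayCode = 12) {L : List ℕ} {p sels : List ℕ}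
    (h : (permOK p && decide (sels.length = Golay.codeGens.length) &&
      (sels.zip Golay.codeGens).all fun sg => mapsTo 24 p (xorSel L sg.1) sg.2) = true) : Good L := by
  simp only [Bool.and_eq_true, decide_eq_true_eq] at h
  exact good_leaf hgolay h.1.1 h.1.2 h.2

end Cfsg.Lib.SteinerCert.Code24
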