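import Mathlib
import Cfsg.Agent.Lib.SteinerCert.Code24
import Cfsg.Agent.Lib.Steiner.Basic

/-! Checked search for the uniqueness of families of blocks of length 24 through fixed points. -/

set_option autoImplicit false

namespace Cfsg.Lib.SteinerCert.Fam

open Finset Cfsg Cfsg.Lib.Code.AbstractGolay
open Code24 (Kid xorSel cands permOK toPerm24 xorSel_mem ind_xor maskOf testBit_maskOf inter_count triples kidOK)

local notation "V" => (Fin 24 → ZMod 2)

/-- The code of a family. -/
def code (P : Set (Finset (Fin 24))) : Submodule (ZMod 2) V := Submodule.span (ZMod 2) (ind '' P)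

theorem mem_code {P : Set (Finset (Fin 24))} {b : Finset (Fin 24)} (hb : b ∈ P) : ind b ∈ code P :=
  Submodule.subset_span ⟨b, hb, rfl⟩

theorem orth {P : Set (Finset (Fin 24))} (hev : ∀ b ∈ P, ∀ c ∈ P, Even (b ∩ c).card) :
    ∀ v ∈ code P, ∀ w ∈ code P, ∑ i, v i * w i = 0 := by
  intro v hv w hw
  induction hv using Submodule.span_induction with
  | zero => simp
  | add x y _ _ hx hy => simp [add_mul, Finset.sum_add_distrib, hx, hy]
  | smul c x _ hx => simp [mul_assoc, ← Finset.mul_sum, hx]
  | mem x hx =>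
    obtain ⟨b, hb, rfl⟩ := hx
    induction hw using Submodule.span_induction with
    | zero => simp
    | add x y _ _ hx hy => simp [mul_add, Finset.sum_add_distrib, hx, hy]
    | smul c x _ hx => simp [mul_left_comm, ← Finset.mul_sum, hx]
    | mem y hy =>
      obtain ⟨c, hc, rfl⟩ := hy
      rw [dot_eq, supp_ind, supp_ind, ZMod.natCast_eq_zero_iff_even]
      exact hev b hb c hc

/-- A family of octads through the points of the mask. -/
structure IsFam (FM N : ℕ) (P : Set (Finset (Fin 24))) : Prop where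
  card : ∀ b ∈ P, b.card = 8
  fixed : ∀ b ∈ P, toF 24 FM ⊆ b
  cover : ∀ s : Finset (Fin 24), s.card = 5 → toF 24 FM ⊆ s → ∃ b ∈ P, s ⊆ b
  even : ∀ b ∈ P, ∀ c ∈ P, Even (b ∩ c).card
  weight : ∀ w ∈ code P, w ≠ 0 → 8 ≤ hammingNorm w
  total : P.ncard = N

theorem eq_of_mem_code {FM N : ℕ} {P : Set (Finset (Fin 24))} (h : IsFam FM N P) {O b u : Finset (Fin 24)}
    (hO : ind O ∈ code P) (hO8 : O.card = 8) (hb : b ∈ P) (hu : 5 ≤ u.card) (h1 : u ⊆ O) (h2 : u ⊆ b) : O = b :=
  octad_unique h.weight ⟨hO, hO8⟩ ⟨mem_code hb, h.card b hb⟩ hu h1 h2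

theorem mem_of_code {FM N : ℕ} {P : Set (Finset (Fin 24))} (h : IsFam FM N P) (hFM : (toF 24 FM).card ≤ 5)
    {O : Finset (Fin 24)} (hO : ind O ∈ code P) (hO8 : O.card = 8) (hF : toF 24 FM ⊆ O) : O ∈ P := by
  obtain ⟨s, hs1, hs2, hs5⟩ := Finset.exists_subsuperset_card_eq hF hFM (show 5 ≤ O.card by omega)
  obtain ⟨b, hb, hsb⟩ := h.cover s hs5 hs1
  rwa [eq_of_mem_code h hO hO8 hb hs5.ge hs2 hsb]

/-- Every family containing `L` is carried to the standard one. -/
def Good (FM N : ℕ) (std L : List ℕ) : Prop :=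
  ∀ P, IsFam FM N P → (∀ b ∈ L, toF 24 b ∈ P) →
    ∃ π : Equiv.Perm (Fin 24), (toF 24 FM).image π = toF 24 FM ∧ (fun b => b.image π) '' P = sysOf 24 std

theorem code_image (π : Equiv.Perm (Fin 24)) (P : Set (Finset (Fin 24))) {v : V}
    (hv : v ∈ code ((fun b => b.image π) '' P)) : (fun i => v (π i)) ∈ code P := by
  induction hv using Submodule.span_induction with
  | zero => exact Submodule.zero_mem _
  | add x y _ _ hx hy => exact Submodule.add_mem _ hx hy
  | smul c x _ hx => exact Submodule.smul_mem _ c hx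
  | mem x hx =>
    obtain ⟨_, ⟨b, hb, rfl⟩, rfl⟩ := hx
    convert mem_code hb using 1
    funext i
    simp [ind, Finset.mem_image]

theorem isFam_image {FM N : ℕ} {P : Set (Finset (Fin 24))} (h : IsFam FM N P) (π : Equiv.Perm (Fin 24))
    (hπ : (toF 24 FM).image π = toF 24 FM) : IsFam FM N ((fun b => b.image π) '' P) := by
  refine ⟨?_, ?_, fun s hs hF => ?_, ?_, fun v hv hne => ?_, ?_⟩
  · rintro _ ⟨b, hb, rfl⟩; rw [Finset.card_image_of_injective _ π.injective]; exact h.card b hb
  · rintro _ ⟨b, hb, rfl⟩; rw [← hπ]; exact Finset.image_subset_image (h.fixed b hb)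
  · obtain ⟨b, hb, hsb⟩ := h.cover (s.image π.symm) (by rw [Finset.card_image_of_injective _ π.symm.injective, hs])
      (fun x hx => Finset.mem_image.2 ⟨π x, hF (hπ ▸ Finset.mem_image_of_mem _ hx), π.symm_apply_apply x⟩)
    exact ⟨_, ⟨b, hb, rfl⟩, fun x hx =>
      Finset.mem_image.2 ⟨π.symm x, hsb (Finset.mem_image_of_mem _ hx), π.apply_symm_apply x⟩⟩
  · rintro _ ⟨b, hb, rfl⟩ _ ⟨c, hc, rfl⟩
    rw [← Finset.image_inter _ _ π.injective, Finset.card_image_of_injective _ π.injective]
    exact h.even b hb c hc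
  · have h8 := h.weight _ (code_image π P hv) fun e => hne (funext fun i => by
      simpa using congrFun e (π.symm i))
    rw [hammingNorm_eq] at h8 ⊢
    refine h8.trans ?_
    rw [← Finset.card_image_of_injective _ π.injective]
    refine Finset.card_le_card fun i hi => ?_
    obtain ⟨j, hj, rfl⟩ := Finset.mem_image.1 hi
    exact mem_supp.2 (by simpa [mem_supp] using hj)
  · rw [Set.ncard_image_of_injective _ (Finset.image_injective π.injective), h.total]

theorem good_branch {FM N : ℕ} {std L : List ℕ} {S : ℕ} (hS : cnt 24 S = 5) (hFS : FM &&& S = FM)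
    (hSL : ∀ b ∈ L, cnt 24 (b &&& S) < 5) (hk : ∀ c ∈ cands L S, Good FM N std (L ++ [c])) : Good FM N std L := by
  intro P hP hL
  classical
  have hF : toF 24 FM ⊆ toF 24 S := fun i hi => by
    rw [← hFS, ← toF_inter] at hi; exact (Finset.mem_inter.1 hi).2
  obtain ⟨O, hO, hSO⟩ := hP.cover (toF 24 S) (by rw [card_toF, hS]) hF
  have hd : (O \ toF 24 S).card = 3 := by rw [card_sdiff_of_subset hSO, hP.card O hO, card_toF, hS]
  set f := (O \ toF 24 S).orderEmbOfFin hd with hf
  set T : List ℕ := [(f 0).val, (f 1).val, (f 2).val] with hT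
  have hmono : (f 0).val < (f 1).val ∧ (f 1).val < (f 2).val :=
    ⟨f.strictMono (by decide), f.strictMono (by decide)⟩
  have hfm : ∀ i, f i ∈ O \ toF 24 S := fun i => Finset.orderEmbOfFin_mem _ hd i
  have hTS : ∀ i ∈ T, i < 24 ∧ S.testBit i = false := by
    intro i hi
    simp only [hT, List.mem_cons, List.not_mem_nil, or_false] at hi
    have h : ∀ k, (f k).val < 24 ∧ S.testBit (f k).val = false := fun k =>
      ⟨(f k).isLt, by simpa [mem_toF] using (Finset.mem_sdiff.1 (hfm k)).2⟩
    rcases hi with rfl | rfl | rfl <;> exact h _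
  have hnd : T.Nodup := by
    simp only [hT, List.nodup_cons, List.mem_cons, List.not_mem_nil, or_false, List.nodup_nil, and_true, not_false_eq_true]
    omega
  have heq : toF 24 (maskOf S T) = O := by
    refine (Finset.eq_of_subset_of_card_le (fun i hi => ?_) ?_).symm
    · rw [mem_toF, testBit_maskOf]
      by_cases h : i ∈ toF 24 S
      · exact Or.inl (mem_toF.1 h)
      · right
        have hi' : i ∈ Set.range f := by
          rw [hf, Finset.range_orderEmbOfFin]; exact Finset.mem_sdiff.2 ⟨hi, h⟩
        obtain ⟨k, rfl⟩ := hi'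
        fin_cases k <;> simp [hT]
    · have h1 : toF 24 (maskOf S T) ⊆ toF 24 S ∪ (O \ toF 24 S) := by
        intro i hi
        rw [mem_toF, testBit_maskOf] at hi
        rcases hi with h | h
        · exact Finset.mem_union_left _ (mem_toF.2 h)
        · refine Finset.mem_union_right _ ?_
          simp only [hT, List.mem_cons, List.not_mem_nil, or_false] at h
          rcases h with h | h | h <;> exact (Fin.ext h : i = _) ▸ hfm _
      rw [Finset.union_sdiff_of_subset hSO] at h1
      exact Finset.card_le_card h1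
  refine hk (maskOf S T) ?_ P hP ?_
  · simp only [cands, List.mem_map, List.mem_filter, List.all_eq_true]
    refine ⟨T, ⟨?_, ?_⟩, rfl⟩
    · have hp : ∀ i ∈ T, i ∈ (List.range 24).filter fun x => !S.testBit x := fun i hi =>
        List.mem_filter.2 ⟨List.mem_range.2 (hTS i hi).1, by simp [(hTS i hi).2]⟩
      simp only [triples, List.mem_flatMap, List.mem_map, hT]
      exact ⟨_, hp _ (by simp [hT]), _, List.mem_filter.2 ⟨hp _ (by simp [hT]), by simpa using hmono.1⟩, _,
        List.mem_filter.2 ⟨hp _ (by simp [hT]), by simpa using hmono.2⟩, rfl⟩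
    · rintro _ ⟨b, hb, rfl⟩
      have hm : cnt 24 (b &&& S) + T.countP (fun i => b.testBit i) = (toF 24 b ∩ O).card := by
        rw [← heq, inter_count hnd (fun i hi => (hTS i hi).1) (fun i hi => (hTS i hi).2)]
      simp only [Bool.and_eq_true, decide_eq_true_eq, hm]
      have hb' := hL b hb
      refine ⟨Nat.even_iff.1 (hP.even _ hb' _ hO), ?_⟩
      by_contra hgt
      have hne : toF 24 b ≠ O := fun e => by
        have := hSL b hb
        rw [← card_toF, ← toF_inter, e, Finset.inter_eq_right.2 hSO, card_toF, hS] at this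
        omega
      obtain ⟨u, hu, hucard⟩ := Finset.exists_subset_card_eq (show 5 ≤ (toF 24 b ∩ O).card by omega)
      exact hne (eq_of_mem_code hP (mem_code hb') (hP.card _ hb') hO (u := u) hucard.ge
        (hu.trans Finset.inter_subset_left) (hu.trans Finset.inter_subset_right))
  · intro b hb
    rcases List.mem_append.1 hb with h | h
    · exact hL b h
    · rw [List.mem_singleton.1 h, heq]; exact hO

theorem good_conflict {FM N : ℕ} {std L : List ℕ} {c sel : ℕ} (h0 : 0 < cnt 24 (xorSel L sel ^^^ c))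
    (h8 : cnt 24 (xorSel L sel ^^^ c) < 8) : Good FM N std (L ++ [c]) := by
  intro P hP hL
  exfalso
  have hm : ind (toF 24 (xorSel L sel ^^^ c)) ∈ code P := by
    rw [ind_xor]
    exact Submodule.add_mem _ (xorSel_mem L (fun b hb => mem_code (hL b (List.mem_append_left _ hb))) sel)
      (mem_code (hL c (List.mem_append_right _ (List.mem_singleton_self c))))
  have h := small_weight hP.weight hm (by rw [supp_ind, card_toF]; omega)
  have h2 : supp (ind (toF 24 (xorSel L sel ^^^ c))) = (∅ : Finset (Fin 24)) := by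
    rw [h]; ext i; simp [mem_supp]
  rw [supp_ind] at h2
  rw [← card_toF, h2] at h0
  exact Nat.lt_irrefl _ h0

theorem good_sym {FM N : ℕ} {std L : List ℕ} {c d : ℕ} {p : List ℕ} (hp : permOK p = true)
    (hFF : mapsTo 24 p FM FM = true) (hcd : mapsTo 24 p c d = true)
    (hLL : (L.all fun a => L.any fun b => mapsTo 24 p a b) = true) (hd : Good FM N std (L ++ [d])) :
    Good FM N std (L ++ [c]) := by
  intro P hP hL
  classical
  obtain ⟨π, hπ⟩ := toPerm24 hp
  simp only [List.all_eq_true, List.any_eq_true] at hLL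
  have hFπ : (toF 24 FM).image π = toF 24 FM := image_eq hπ hFF
  have hmem : ∀ b ∈ L ++ [d], toF 24 b ∈ (fun s : Finset (Fin 24) => s.image π) '' P := by
    intro b hb
    rcases List.mem_append.1 hb with h | h
    · let g : {a // a ∈ L.toFinset.image (toF 24)} → {a // a ∈ L.toFinset.image (toF 24)} := fun a =>
        ⟨a.1.image π, by
          obtain ⟨a0, ha0, e⟩ := Finset.mem_image.1 a.2
          obtain ⟨b0, hb0, hab⟩ := hLL a0 (List.mem_toFinset.1 ha0)
          rw [← e, image_eq hπ hab]
          exact Finset.mem_image_of_mem _ (List.mem_toFinset.2 hb0)⟩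
      have hg : Function.Injective g := fun x y e =>
        Subtype.ext (Finset.image_injective π.injective (congrArg Subtype.val e))
      obtain ⟨⟨a, ha⟩, e⟩ := Finite.surjective_of_injective hg
        ⟨toF 24 b, Finset.mem_image_of_mem _ (List.mem_toFinset.2 h)⟩
      obtain ⟨a0, ha0, rfl⟩ := Finset.mem_image.1 ha
      exact ⟨_, hL a0 (List.mem_append_left _ (List.mem_toFinset.1 ha0)), congrArg Subtype.val e⟩
    · rw [List.mem_singleton.1 h]
      exact ⟨_, hL c (List.mem_append_right _ (List.mem_singleton_self c)), image_eq hπ hcd⟩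
  obtain ⟨ρ, hρF, hρ⟩ := hd _ (isFam_image hP π hFπ) hmem
  refine ⟨π.trans ρ, ?_, ?_⟩
  · rw [Equiv.coe_trans, ← Finset.image_image, hFπ, hρF]
  · rw [← hρ, Set.image_image]
    exact Set.image_congr fun b _ => by rw [Equiv.coe_trans, Finset.image_image]

/-- The checks on the standard family: a basis of its span, and each member selected from it. -/
def stdOK (FM N : ℕ) (std gens stdSels : List ℕ) : Bool :=
  decide (cnt 24 FM ≤ 5) && decide (std.length = N) && distinct 24 std && decide (stdSels.length = N) &&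
    (std.zip stdSels).all fun ms => decide (cnt 24 ms.1 = 8) && decide (FM &&& ms.1 = FM) &&
      decide (xorSel gens ms.2 = ms.1)

theorem good_leaf {FM N : ℕ} {std gens stdSels L : List ℕ} (hstd : stdOK FM N std gens stdSels = true)
    {p sels : List ℕ} (h : (permOK p && mapsTo 24 p FM FM && decide (sels.length = gens.length) &&
      (sels.zip gens).all fun sg => mapsTo 24 p (xorSel L sg.1) sg.2) = true) : Good FM N std L := by
  intro P hP hL
  classical
  simp only [Bool.and_eq_true, decide_eq_true_eq, List.all_eq_true] at h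
  simp only [stdOK, Bool.and_eq_true, decide_eq_true_eq, List.all_eq_true] at hstd
  obtain ⟨⟨⟨⟨hFM, hN⟩, hdist⟩, hlen⟩, hall⟩ := hstd
  obtain ⟨⟨⟨hp, hFF⟩, hslen⟩, hz⟩ := h
  obtain ⟨π, hπ⟩ := toPerm24 hp
  have hFπ : (toF 24 FM).image π = toF 24 FM := image_eq hπ hFF
  have hP' := isFam_image hP π hFπ
  set P' := (fun b : Finset (Fin 24) => b.image π) '' P with hP'def
  have hgen : ∀ g ∈ gens, ind (toF 24 g) ∈ code P' := by
    intro g hg
    obtain ⟨i, hi, rfl⟩ := List.getElem_of_mem hg
    have hm := hz (sels[i]'(hslen ▸ hi), gens[i])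
      (List.mem_iff_getElem.2 ⟨i, by rw [List.length_zip]; omega, by rw [List.getElem_zip]⟩)
    rw [← image_eq hπ hm]
    have hmem : ∀ v ∈ code P, (fun i => v (π.symm i)) ∈ code P' := by
      intro v hv
      apply code_image π.symm P'
      convert hv using 1
      rw [hP'def, Set.image_image]
      simp [Finset.image_image]
    have hx := hmem _ (xorSel_mem L (fun b hb => mem_code (hL b hb)) (sels[i]'(hslen ▸ hi)))
    convert hx using 1
    funext j
    simp [ind, Finset.mem_image, ← π.eq_symm_apply]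
  have hsub : sysOf 24 std ⊆ P' := by
    rintro _ ⟨m, hm, rfl⟩
    obtain ⟨i, hi, rfl⟩ := List.getElem_of_mem hm
    obtain ⟨⟨h8, hF⟩, hx⟩ := hall (std[i], stdSels[i]'(by omega))
      (List.mem_iff_getElem.2 ⟨i, by rw [List.length_zip]; omega, by rw [List.getElem_zip]⟩)
    refine mem_of_code hP' (by rw [card_toF]; exact hFM) ?_ (by rw [card_toF]; exact h8) ?_
    · have hx' : xorSel gens (stdSels[i]'(by omega)) = std[i] := hx
      rw [← hx']; exact xorSel_mem gens hgen _
    · intro j hj; rw [← hF, ← toF_inter] at hj; exact (Finset.mem_inter.1 hj).2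
  refine ⟨π, hFπ, (Set.eq_of_subset_of_ncard_le hsub ?_ (Set.toFinite _)).symm⟩
  have he : sysOf 24 std = ((std.map (toF 24)).toFinset : Set (Finset (Fin 24))) := by ext s; simp [sysOf]
  rw [hP'.total, he, Set.ncard_coe_finset, List.toFinset_card_of_nodup (distinct_spec hdist), List.length_map, hN]

theorem node_good {FM N : ℕ} {std : List ℕ} {known : List (List ℕ)} (hknown : ∀ K ∈ known, Good FM N std K)
    {L : List ℕ} {S : ℕ} {dgood : List ℕ} {items : List (ℕ × Kid)}
    (hS : (decide (cnt 24 S = 5) && decide (FM &&& S = FM) && L.all (fun b => decide (cnt 24 (b &&& S) < 5)) &&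
      dgood.all fun d => known.contains (L ++ [d])) = true)
    (hc : cands L S = items.map Prod.fst) (hk : items.all (kidOK known L dgood) = true)
    (hkF : items.all (fun it => match it.2 with | .sym p _ => mapsTo 24 p FM FM | _ => true) = true) :
    Good FM N std L := by
  simp only [Bool.and_eq_true, decide_eq_true_eq, List.all_eq_true] at hS
  refine good_branch hS.1.1.1 hS.1.1.2 hS.1.2 fun c hcm => ?_
  rw [hc, List.mem_map] at hcm
  obtain ⟨⟨c', k⟩, hk', rfl⟩ := hcm
  have h := List.all_eq_true.1 hk _ hk'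
  have hF := List.all_eq_true.1 hkF _ hk'
  cases k with
  | go => exact hknown _ (List.contains_iff_mem.1 h)
  | conf sel =>
    simp only [kidOK, Bool.and_eq_true, decide_eq_true_eq] at h
    exact good_conflict h.1 h.2
  | sym p d =>
    simp only [kidOK, Bool.and_eq_true] at h
    exact good_sym h.1.1.1 hF h.1.2 h.2
      (hknown _ (List.contains_iff_mem.1 (hS.2 d (List.contains_iff_mem.1 h.1.1.2))))

end Cfsg.Lib.SteinerCert.Fam
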