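import Mathlib
import Cfsg.Agent.Lib.SteinerCert.Fam
import Cfsg.Agent.Lib.Steiner.S22

/-! Derived Steiner systems as families of octads through fixed points. -/

set_option autoImplicit false

namespace Cfsg.Lib.SteinerCert.Derived

open Finset Cfsg Cfsg.Lib.Code.AbstractGolay Fam

local notation "V" => (Fin 24 → ZMod 2)

theorem weight_of {P : Set (Finset (Fin 24))} (h8 : ∀ b ∈ P, b.card = 8)
    (hev : ∀ b ∈ P, ∀ c ∈ P, Even (b ∩ c).card)
    (hodd : ∀ u : Finset (Fin 24), u.card = 4 → ∃ b ∈ P, (b ∩ u).card % 2 = 1) :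
    ∀ w ∈ code P, w ≠ 0 → 8 ≤ hammingNorm w := by
  have four : ∀ w ∈ code P, w ∈ code P ∧ 4 ∣ (supp w).card := by
    intro w hw
    induction hw using Submodule.span_induction with
    | zero => exact ⟨Submodule.zero_mem _, by simp [supp]⟩
    | mem x hx =>
      obtain ⟨b, hb, rfl⟩ := hx
      exact ⟨mem_code hb, by rw [supp_ind, h8 b hb]; norm_num⟩
    | add x y _ _ hx hy =>
      refine ⟨Submodule.add_mem _ hx.1 hy.1, ?_⟩
      have he := orth hev x hx.1 y hy.1
      rw [dot_eq, ZMod.natCast_eq_zero_iff_even] at he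
      obtain ⟨k, hk⟩ := he
      rw [supp_add]
      have := card_symmDiff_add (supp x) (supp y)
      obtain ⟨a, ha⟩ := hx.2
      obtain ⟨b, hb⟩ := hy.2
      omega
    | smul c x _ hx =>
      by_cases hc : c = 0
      · subst hc; exact ⟨by simp, by simp [supp]⟩
      · rw [eq_one_of_ne hc, one_smul]; exact hx
  intro w hw hne
  rw [hammingNorm_eq]
  by_contra hlt
  obtain ⟨k, hk⟩ := (four w hw).2
  have hk1 : (supp w).card = 4 := by
    have : 0 < (supp w).card := Finset.card_pos.2 (by
      by_contra h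
      refine hne (funext fun i => ?_)
      by_contra hi
      exact h ⟨i, mem_supp.2 hi⟩)
    omega
  obtain ⟨b, hb, hbu⟩ := hodd _ hk1
  have := orth hev (ind b) (mem_code hb) w hw
  rw [dot_eq, supp_ind, ZMod.natCast_eq_zero_iff_even, Nat.even_iff] at this
  omega

section embedded

variable {α : Type*} [Fintype α] [DecidableEq α] {t k : ℕ} {B : Set (Finset α)} {FM : ℕ}

/-- The extended block. -/
def ext (ι : α ↪ Fin 24) (FM : ℕ) (b : Finset α) : Finset (Fin 24) := b.map ι ∪ toF 24 FM

/-- The extended family. -/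
def fam (ι : α ↪ Fin 24) (FM : ℕ) (B : Set (Finset α)) : Set (Finset (Fin 24)) := ext ι FM '' B

variable (ι : α ↪ Fin 24) (hι : ∀ x, x ∈ toF 24 FM ↔ ∀ a, ι a ≠ x)

include hι in
theorem disjoint_ext (b : Finset α) : Disjoint (b.map ι) (toF 24 FM) := by
  rw [Finset.disjoint_left]
  intro x hx hF
  obtain ⟨a, -, rfl⟩ := Finset.mem_map.1 hx
  exact (hι _).1 hF a rfl

include hι in
theorem ext_injective : Function.Injective (ext ι FM) := fun b c h => by
  refine Finset.map_injective ι ?_
  have h' := congrArg (fun s => s \ toF 24 FM) h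
  simpa [ext, Finset.union_sdiff_right, Finset.sdiff_eq_self_of_disjoint (disjoint_ext ι hι b),
    Finset.sdiff_eq_self_of_disjoint (disjoint_ext ι hι c)] using h'

include hι in
theorem ext_inter (b c : Finset α) : (ext ι FM b ∩ ext ι FM c).card = (b ∩ c).card + (toF 24 FM).card := by
  rw [ext, ext, ← Finset.inter_union_distrib_right, ← Finset.map_inter,
    Finset.card_union_of_disjoint (disjoint_ext ι hι _), Finset.card_map]

include hι in
theorem ext_inter_set (b : Finset α) (u : Finset (Fin 24)) :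
    (ext ι FM b ∩ u).card = (b.filter fun a => ι a ∈ u).card + (toF 24 FM ∩ u).card := by
  rw [ext, Finset.union_inter_distrib_right, Finset.card_union_of_disjoint
    ((disjoint_ext ι hι b).mono Finset.inter_subset_left Finset.inter_subset_left), ← Finset.filter_mem_eq_inter,
    Finset.filter_map, Finset.card_map]
  rfl

theorem avoid (hB : IsSteinerSystem t k B) (S T : Finset α) (n0 n1 : ℕ)
    (h0 : ((Lib.Steiner.blocks B).filter fun b => S ⊆ b).card = n0)
    (h1 : ∀ x ∈ T, ((Lib.Steiner.blocks B).filter fun b => insert x S ⊆ b).card ≤ n1)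
    (hlt : T.card * n1 < n0) : ∃ b ∈ B, S ⊆ b ∧ Disjoint b T := by
  by_contra hne
  push Not at hne
  have hsub : ((Lib.Steiner.blocks B).filter fun b => S ⊆ b) ⊆
      T.biUnion fun x => (Lib.Steiner.blocks B).filter fun b => insert x S ⊆ b := by
    intro b hb
    rw [Finset.mem_filter, Lib.Steiner.mem_blocks] at hb
    obtain ⟨x, hxb, hxT⟩ := Finset.not_disjoint_iff.1 (hne b hb.1 hb.2)
    exact Finset.mem_biUnion.2 ⟨x, hxT, Finset.mem_filter.2
      ⟨Lib.Steiner.mem_blocks.2 hb.1, Finset.insert_subset hxb hb.2⟩⟩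
  have := (Finset.card_le_card hsub).trans (Finset.card_biUnion_le_card_mul T _ n1 h1)
  omega

include hι in
theorem isFam (hB : IsSteinerSystem t k B) (hk : k + (toF 24 FM).card = 8) (htr : t + (toF 24 FM).card = 5)
    (hev : ∀ b ∈ B, ∀ c ∈ B, Even ((b ∩ c).card + (toF 24 FM).card))
    (hodd : ∀ u : Finset (Fin 24), u.card = 4 → ∃ b ∈ fam ι FM B, (b ∩ u).card % 2 = 1) {N : ℕ} (hN : B.ncard = N) :
    IsFam FM N (fam ι FM B) := by
  have h8 : ∀ b ∈ fam ι FM B, b.card = 8 := by
    rintro _ ⟨b, hb, rfl⟩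
    rw [ext, Finset.card_union_of_disjoint (disjoint_ext ι hι b), Finset.card_map, hB.1 b hb, hk]
  have hev' : ∀ b ∈ fam ι FM B, ∀ c ∈ fam ι FM B, Even (b ∩ c).card := by
    rintro _ ⟨b, hb, rfl⟩ _ ⟨c, hc, rfl⟩
    rw [ext_inter ι hι]; exact hev b hb c hc
  refine ⟨h8, ?_, fun s hs hF => ?_, hev', weight_of h8 hev' hodd, ?_⟩
  · rintro _ ⟨b, hb, rfl⟩; exact Finset.subset_union_right
  · set s0 := Finset.univ.filter fun a => ι a ∈ s
    have hs0 : s0.map ι = s \ toF 24 FM := by
      ext x
      simp only [Finset.mem_map, s0, Finset.mem_filter, Finset.mem_univ, true_and, Finset.mem_sdiff, hι]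
      constructor
      · rintro ⟨a, ha, rfl⟩; exact ⟨ha, fun h => h a rfl⟩
      · rintro ⟨hx, h⟩
        push Not at h
        obtain ⟨a, rfl⟩ := h
        exact ⟨a, hx, rfl⟩
    obtain ⟨b, ⟨hb, hsb⟩, -⟩ := hB.2 s0 (by
      rw [← Finset.card_map ι, hs0, card_sdiff_of_subset hF, hs]; omega)
    refine ⟨_, ⟨b, hb, rfl⟩, fun x hx => ?_⟩
    by_cases h : x ∈ toF 24 FM
    · exact Finset.mem_union_right _ h
    · exact Finset.mem_union_left _ (Finset.map_subset_map.2 hsb (by rw [hs0]; exact Finset.mem_sdiff.2 ⟨hx, h⟩))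
  · rw [fam, Set.ncard_image_of_injective _ (ext_injective ι hι), hN]

include hι in
theorem model {N : ℕ} {std : List ℕ} (hgood : Fam.Good FM N std []) (hfam : IsFam FM N (fam ι FM B)) :
    ∃ e : α ≃ {x : Fin 24 // x ∉ toF 24 FM}, (fun b : Finset α => b.image e) '' B =
      {s | s.map (Function.Embedding.subtype _) ∪ toF 24 FM ∈ sysOf 24 std} := by
  classical
  obtain ⟨π, hπF, hπ⟩ := hgood _ hfam fun b hb => absurd hb List.not_mem_nil
  have hmem : ∀ x, π x ∈ toF 24 FM ↔ x ∈ toF 24 FM := fun x => by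
    conv_lhs => rw [← hπF]
    rw [Finset.mem_image]
    exact ⟨fun ⟨y, hy, e⟩ => π.injective e ▸ hy, fun h => ⟨x, h, rfl⟩⟩
  have hnot : ∀ a, π (ι a) ∉ toF 24 FM := fun a h => (hι _).1 ((hmem _).1 h) a rfl
  let e : α ≃ {x : Fin 24 // x ∉ toF 24 FM} :=
    Equiv.ofBijective (fun a => ⟨π (ι a), hnot a⟩) ⟨fun a b h => ι.injective (π.injective (congrArg Subtype.val h)),
      fun ⟨x, hx⟩ => by
        have h : π.symm x ∉ toF 24 FM := fun h => hx (by rw [← π.apply_symm_apply x]; exact (hmem _).2 h)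
        rw [hι] at h
        push Not at h
        obtain ⟨a, ha⟩ := h
        exact ⟨a, Subtype.ext (show π (ι a) = x by rw [ha, π.apply_symm_apply])⟩⟩
  have hext : ∀ b : Finset α, (b.image e).map (Function.Embedding.subtype _) ∪ toF 24 FM = (ext ι FM b).image π := by
    intro b
    rw [ext, Finset.image_union, hπF]
    congr 1
    rw [Finset.map_eq_image, Finset.map_eq_image, Finset.image_image, Finset.image_image]
    rfl
  refine ⟨e, Set.ext fun s => ⟨?_, fun hs => ?_⟩⟩
  · rintro ⟨b, hb, rfl⟩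
    show _ ∈ sysOf 24 std
    rw [hext, ← hπ]
    exact ⟨_, ⟨b, hb, rfl⟩, rfl⟩
  · have hs' : s.map (Function.Embedding.subtype _) ∪ toF 24 FM ∈ sysOf 24 std := hs
    rw [← hπ] at hs'
    obtain ⟨_, ⟨b, hb, rfl⟩, he⟩ := hs'
    refine ⟨b, hb, ?_⟩
    have he' : (b.image e).map (Function.Embedding.subtype _) ∪ toF 24 FM =
        s.map (Function.Embedding.subtype _) ∪ toF 24 FM := (hext b).trans he
    have hd : ∀ u : Finset {x : Fin 24 // x ∉ toF 24 FM},
        Disjoint (u.map (Function.Embedding.subtype _)) (toF 24 FM) := fun u => by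
      rw [Finset.disjoint_left]
      intro x hx
      obtain ⟨y, -, rfl⟩ := Finset.mem_map.1 hx
      exact y.2
    refine Finset.map_injective (Function.Embedding.subtype _) ?_
    have h' := congrArg (fun z => z \ toF 24 FM) he'
    simpa [Finset.union_sdiff_right, Finset.sdiff_eq_self_of_disjoint (hd _)] using h'

end embedded

theorem exists_emb {α : Type*} [Fintype α] (FM : ℕ) (h : Fintype.card α + (toF 24 FM).card = 24) :
    ∃ ι : α ↪ Fin 24, ∀ x, x ∈ toF 24 FM ↔ ∀ a, ι a ≠ x := by
  classical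
  have hc : Fintype.card α = Fintype.card {x : Fin 24 // x ∉ toF 24 FM} := by
    rw [Fintype.card_subtype_compl, Fintype.card_fin, Fintype.card_coe]; omega
  let e := Fintype.equivOfCardEq hc
  refine ⟨e.toEmbedding.trans (Function.Embedding.subtype _), fun x => ⟨fun hx a e' => (e a).2 (by rw [← e'] at hx; exact hx), fun h => ?_⟩⟩
  by_contra hx
  exact h (e.symm ⟨x, hx⟩) (by simp)

theorem inter23 {α : Type*} [Fintype α] [DecidableEq α] {B : Set (Finset α)} (hα : Fintype.card α = 23)
    (hB : IsSteinerSystem 4 7 B) {b c : Finset α} (hb : b ∈ B) (hc : c ∈ B) : (b ∩ c).card % 2 = 1 := by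
  by_cases hbc : b = c
  · subst hbc; rw [Finset.inter_self, hB.1 b hb]
  have e0 := Lib.Steiner.meet_equation hB hb (s := 0) (by norm_num) 253 (by rw [hα]; rfl) (by norm_num)
  have e1 := Lib.Steiner.meet_equation hB hb (s := 1) (by norm_num) 77 (by rw [hα]; rfl) (by norm_num)
  have e2 := Lib.Steiner.meet_equation hB hb (s := 2) (by norm_num) 21 (by rw [hα]; rfl) (by norm_num)
  have e3 := Lib.Steiner.meet_equation hB hb (s := 3) (by norm_num) 5 (by rw [hα]; rfl) (by norm_num)
  simp [Finset.sum_range_succ, Nat.choose] at e0 e1 e2 e3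
  have hpos := Lib.Steiner.meetNum_pos hc hbc
  have hlt : (b ∩ c).card < 4 := by
    by_contra h; exact hbc (Lib.Steiner.eq_of_le_inter hB hb hc (not_lt.1 h))
  interval_cases h : (b ∩ c).card <;> omega

theorem through_le {α : Type*} [Fintype α] [DecidableEq α] {t k : ℕ} {B : Set (Finset α)} (hB : IsSteinerSystem t k B)
    (S : Finset α) (hS : S.card ≤ t) {l : ℕ}
    (hl : l * (k - S.card).choose (t - S.card) = (Fintype.card α - S.card).choose (t - S.card)) (hk : t ≤ k) :
    ((Lib.Steiner.blocks B).filter fun b => S ⊆ b).card = l :=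
  Nat.eq_of_mul_eq_mul_right (Nat.choose_pos (by omega)) ((Lib.Steiner.through_mul hB S hS).trans hl.symm)

theorem fam23 {α : Type*} [Fintype α] [DecidableEq α] {B : Set (Finset α)} (hα : Fintype.card α = 23)
    (hB : IsSteinerSystem 4 7 B) (FM : ℕ) (hF : (toF 24 FM).card = 1) (ι : α ↪ Fin 24)
    (hι : ∀ x, x ∈ toF 24 FM ↔ ∀ a, ι a ≠ x) : IsFam FM 253 (fam ι FM B) := by
  classical
  refine isFam ι hι hB (by omega) (by omega) (fun b hb c hc => ?_) (fun u hu => ?_) ?_
  · rw [hF, Nat.even_iff]; have := inter23 hα hB hb hc; omega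
  · set T := Finset.univ.filter fun a => ι a ∈ u
    have hT : T.card + (toF 24 FM ∩ u).card = 4 := by
      have h := ext_inter_set ι hι (Finset.univ : Finset α) u
      rw [← hu]
      refine h.symm.trans (congrArg Finset.card (Finset.inter_eq_right.2 fun x _ => ?_))
      by_cases hx : x ∈ toF 24 FM
      · exact Finset.mem_union_right _ hx
      · rw [hι] at hx; push Not at hx; obtain ⟨a, rfl⟩ := hx
        exact Finset.mem_union_left _ (Finset.mem_map_of_mem _ (Finset.mem_univ a))
    have hle : (toF 24 FM ∩ u).card ≤ 1 := hF ▸ Finset.card_le_card Finset.inter_subset_left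
    rcases Nat.le_one_iff_eq_zero_or_eq_one.1 hle with h0 | h1
    · obtain ⟨a, ha⟩ : T.Nonempty := Finset.card_pos.1 (by omega)
      obtain ⟨b, hb, hab, hd⟩ := avoid hB {a} (T.erase a) 77 21
        (through_le hB {a} (by simp) (by rw [Finset.card_singleton, hα]; rfl) (by norm_num))
        (fun x hx => (through_le hB (l := 21) (insert x {a}) (by rw [Finset.card_pair (Finset.ne_of_mem_erase hx)]; norm_num)
          (by rw [Finset.card_pair (Finset.ne_of_mem_erase hx), hα]; rfl) (by norm_num)).le)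
        (by rw [Finset.card_erase_of_mem ha]; omega)
      refine ⟨_, ⟨b, hb, rfl⟩, ?_⟩
      rw [ext_inter_set ι hι, h0, show (b.filter fun x => ι x ∈ u) = {a} from ?_, Finset.card_singleton]
      refine Finset.eq_singleton_iff_unique_mem.2 ⟨Finset.mem_filter.2 ⟨hab (Finset.mem_singleton_self a),
        (Finset.mem_filter.1 ha).2⟩, fun x hx => ?_⟩
      by_contra hxa
      exact Finset.disjoint_left.1 hd (Finset.mem_filter.1 hx).1
        (Finset.mem_erase.2 ⟨hxa, Finset.mem_filter.2 ⟨Finset.mem_univ x, (Finset.mem_filter.1 hx).2⟩⟩)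
    · obtain ⟨b, hb, -, hd⟩ := avoid hB ∅ T 253 77
        (through_le hB ∅ (by simp) (by rw [Finset.card_empty, hα]; rfl) (by norm_num))
        (fun x hx => (through_le hB (l := 77) (insert x ∅) (by simp) (by simp [hα]; rfl) (by norm_num)).le) (by omega)
      refine ⟨_, ⟨b, hb, rfl⟩, ?_⟩
      rw [ext_inter_set ι hι, h1, show (b.filter fun x => ι x ∈ u) = ∅ from ?_, Finset.card_empty]
      exact Finset.filter_eq_empty_iff.2 fun x hx hxu =>
        Finset.disjoint_left.1 hd hx (Finset.mem_filter.2 ⟨Finset.mem_univ x, hxu⟩)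
  · rw [Lib.Steiner.ncard_eq_blocks]
    have := through_le hB ∅ (by simp) (l := 253) (by rw [Finset.card_empty, hα]; rfl) (by norm_num)
    simpa using this

theorem fam22 {α : Type*} [Fintype α] [DecidableEq α] {B : Set (Finset α)} (hα : Fintype.card α = 22)
    (hB : IsSteinerSystem 3 6 B) (FM : ℕ) (hF : (toF 24 FM).card = 2) (ι : α ↪ Fin 24)
    (hι : ∀ x, x ∈ toF 24 FM ↔ ∀ a, ι a ≠ x) : IsFam FM 77 (fam ι FM B) := by
  classical
  refine isFam ι hι hB (by omega) (by omega) (fun b hb c hc => ?_) (fun u hu => ?_) ?_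
  · rw [hF, Nat.even_iff]
    rcases Lib.Steiner.S22.inter_cases hα hB hb hc with rfl | h | h
    · rw [Finset.inter_self, hB.1 b hb]
    · omega
    · omega
  · set T := Finset.univ.filter fun a => ι a ∈ u
    have hT : T.card + (toF 24 FM ∩ u).card = 4 := by
      have h := ext_inter_set ι hι (Finset.univ : Finset α) u
      rw [← hu]
      refine h.symm.trans (congrArg Finset.card (Finset.inter_eq_right.2 fun x _ => ?_))
      by_cases hx : x ∈ toF 24 FM
      · exact Finset.mem_union_right _ hx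
      · rw [hι] at hx; push Not at hx; obtain ⟨a, rfl⟩ := hx
        exact Finset.mem_union_left _ (Finset.mem_map_of_mem _ (Finset.mem_univ a))
    have hle : (toF 24 FM ∩ u).card ≤ 2 := hF ▸ Finset.card_le_card Finset.inter_subset_left
    by_cases h1 : (toF 24 FM ∩ u).card = 1
    · obtain ⟨b, hb, -, hd⟩ := avoid hB ∅ T 77 21
        (through_le hB ∅ (by simp) (by rw [Finset.card_empty, hα]; rfl) (by norm_num))
        (fun x hx => (through_le hB (l := 21) (insert x ∅) (by simp) (by simp [hα]; rfl) (by norm_num)).le) (by omega)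
      refine ⟨_, ⟨b, hb, rfl⟩, ?_⟩
      rw [ext_inter_set ι hι, h1, show (b.filter fun x => ι x ∈ u) = ∅ from ?_, Finset.card_empty]
      exact Finset.filter_eq_empty_iff.2 fun x hx hxu =>
        Finset.disjoint_left.1 hd hx (Finset.mem_filter.2 ⟨Finset.mem_univ x, hxu⟩)
    · obtain ⟨a, ha⟩ : T.Nonempty := Finset.card_pos.1 (by omega)
      obtain ⟨b, hb, hab, hd⟩ := avoid hB {a} (T.erase a) 21 5
        (through_le hB {a} (by simp) (by rw [Finset.card_singleton, hα]; rfl) (by norm_num))
        (fun x hx => (through_le hB (l := 5) (insert x {a}) (by rw [Finset.card_pair (Finset.ne_of_mem_erase hx)]; norm_num)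
          (by rw [Finset.card_pair (Finset.ne_of_mem_erase hx), hα]; rfl) (by norm_num)).le)
        (by rw [Finset.card_erase_of_mem ha]; omega)
      refine ⟨_, ⟨b, hb, rfl⟩, ?_⟩
      rw [ext_inter_set ι hι, show (b.filter fun x => ι x ∈ u) = {a} from ?_, Finset.card_singleton]
      · omega
      refine Finset.eq_singleton_iff_unique_mem.2 ⟨Finset.mem_filter.2 ⟨hab (Finset.mem_singleton_self a),
        (Finset.mem_filter.1 ha).2⟩, fun x hx => ?_⟩
      by_contra hxa
      exact Finset.disjoint_left.1 hd (Finset.mem_filter.1 hx).1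
        (Finset.mem_erase.2 ⟨hxa, Finset.mem_filter.2 ⟨Finset.mem_univ x, (Finset.mem_filter.1 hx).2⟩⟩)
  · rw [Lib.Steiner.ncard_eq_blocks]
    exact Lib.Steiner.S22.card_blocks hα hB

end Cfsg.Lib.SteinerCert.Derived
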