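import Mathlib
import Cfsg.Agent.Lib.SteinerCert.Derived
import Cfsg.Agent.Lib.Golay.Normalizer
import Cfsg.Agent.Lib.Golay.Simple
import Cfsg.Agent.Lib.Golay.M24

/-! Automorphism groups of the octads through one or two points. -/

set_option autoImplicit false
set_option maxRecDepth 100000

namespace Cfsg.Lib.SteinerCert.Puncture

open Finset Cfsg Cfsg.Lib.Golay
open scoped Pointwise symmDiff

local notation "SUP" => supports (golayCode : Set (GolayPt → ZMod 2))

/-- The octads through the points of `F`, seen outside `F`. -/
def sysAt (F : Finset GolayPt) : Set (Finset {p : GolayPt // p ∉ F}) :=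
  {s | s.map (Function.Embedding.subtype _) ∪ F ∈ octads}

/-- The setwise stabiliser of `F` in the group of the code. -/
def stab (F : Finset GolayPt) : Subgroup (Equiv.Perm GolayPt) :=
  M24 ⊓ MulAction.stabilizer (Equiv.Perm GolayPt) F

theorem stab_mem_iff {F : Finset GolayPt} {g : Equiv.Perm GolayPt} (hg : g ∈ stab F) (p : GolayPt) :
    g p ∉ F ↔ p ∉ F := by
  have h : g • F = F := hg.2
  conv_lhs => rw [← h]
  rw [Finset.smul_finset_def, Finset.mem_image]
  exact not_congr ⟨fun ⟨q, hq, e⟩ => g.injective e ▸ hq, fun hp => ⟨p, hp, rfl⟩⟩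

/-- The action outside `F`. -/
def res (F : Finset GolayPt) : stab F →* Equiv.Perm {p : GolayPt // p ∉ F} where
  toFun g := (g : Equiv.Perm GolayPt).subtypePerm (stab_mem_iff g.2)
  map_one' := by ext; rfl
  map_mul' a b := by ext; rfl

theorem map_image {F : Finset GolayPt} (s : Finset {p : GolayPt // p ∉ F}) (π : Equiv.Perm {p : GolayPt // p ∉ F})
    (g : Equiv.Perm GolayPt) (h : ∀ p, g ((p : {p : GolayPt // p ∉ F}) : GolayPt) = π p) (hF : g • F = F) :
    (π • s).map (Function.Embedding.subtype _) ∪ F = g • (s.map (Function.Embedding.subtype _) ∪ F) := by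
  rw [Finset.smul_finset_union, hF]
  congr 1
  rw [Finset.smul_finset_def, Finset.smul_finset_def, Finset.map_eq_image, Finset.map_eq_image, Finset.image_image,
    Finset.image_image]
  exact Finset.image_congr fun p _ => (h p).symm

theorem res_mem (F : Finset GolayPt) (g : stab F) : res F g ∈ setSystemAut (sysAt F) := by
  rw [MulAction.mem_stabilizer_set' (Set.toFinite _)]
  intro s hs
  show _ ∈ octads
  rw [map_image s (res F g) (g : Equiv.Perm GolayPt) (fun p => rfl) g.2.2]
  exact smul_mem_words g.2.1 hs

/-- The restriction into the automorphism group. -/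
def resAut (F : Finset GolayPt) : stab F →* setSystemAut (sysAt F) := (res F).codRestrict _ (res_mem F)

theorem mem_span_supports {gs : List ℕ} (hspan : (codeGens.all fun g => (spanL gs).contains g) = true)
    {P : Finset GolayPt → Prop} (h0 : P ∅) (hadd : ∀ s t, P s → P t → P (s ∆ t))
    (hg : ∀ g ∈ gs, P (toSet g)) : ∀ s ∈ SUP, P s := by
  intro s hs
  have hsp : ∀ n ∈ spanL gs, P (toSet n) := spanL_induction (P := fun n => P (toSet n)) gs
    (by rw [show toSet 0 = ∅ by ext p; simp [mem_toSet]]; exact h0)
    (fun g hgm a ha => by rw [toSet_xor]; exact hadd _ _ ha (hg g hgm))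
  rw [← toSet_setNat s]
  refine spanL_induction (P := fun n => P (toSet n)) codeGens ?_ ?_ _ ((inCode_iff _).1 ((mem_supports_iff s).1 hs))
  · rw [show toSet 0 = ∅ by ext p; simp [mem_toSet]]; exact h0
  · intro g hgm a ha
    rw [toSet_xor]
    exact hadd _ _ ha (hsp g (List.contains_iff_mem.1 (List.all_eq_true.1 hspan g hgm)))

theorem mem_M24_of_gens {gs : List ℕ} (hspan : (codeGens.all fun g => (spanL gs).contains g) = true)
    {ρ : Equiv.Perm GolayPt} (h : ∀ g ∈ gs, ρ • toSet g ∈ SUP) : ρ ∈ M24 := by
  rw [mem_M24_iff]
  refine mem_span_supports hspan (P := fun s => ρ • s ∈ SUP) ?_ ?_ h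
  · have h0 : (∅ : Finset GolayPt) ∈ SUP := by
      rw [mem_supports_iff]
      decide +kernel
    simpa using h0
  · intro s t hs ht
    show ρ • (s ∆ t) ∈ SUP
    rw [smul_symmDiff]
    exact symmDiff_mem_supports hs ht

theorem extend_spec {F : Finset GolayPt} {π : Equiv.Perm {p : GolayPt // p ∉ F}}
    (hπ : π ∈ setSystemAut (sysAt F)) {o : Finset GolayPt} (ho : o ∈ octads) (hFo : F ⊆ o) :
    Equiv.Perm.ofSubtype π • F = F ∧ Equiv.Perm.ofSubtype π • o ∈ octads := by
  have hF : Equiv.Perm.ofSubtype π • F = F := by
    show F.image (Equiv.Perm.ofSubtype π) = F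
    have : ∀ p ∈ F, Equiv.Perm.ofSubtype π p = p := fun p hp =>
      Equiv.Perm.ofSubtype_apply_of_not_mem π (by simpa using hp)
    rw [Finset.image_congr (g := id) (fun p hp => this p hp), Finset.image_id]
  refine ⟨hF, ?_⟩
  have hrep : (Finset.univ.filter fun p : {p : GolayPt // p ∉ F} => (p : GolayPt) ∈ o).map
      (Function.Embedding.subtype _) ∪ F = o := by
    ext p
    simp only [Finset.mem_union, Finset.mem_map, Finset.mem_filter, Finset.mem_univ, true_and]
    constructor
    · rintro (⟨q, hq, rfl⟩ | h)
      · exact hq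
      · exact hFo h
    · intro hp
      by_cases h : p ∈ F
      · exact Or.inr h
      · exact Or.inl ⟨⟨p, h⟩, hp, rfl⟩
  have hmem : (Finset.univ.filter fun p : {p : GolayPt // p ∉ F} => (p : GolayPt) ∈ o) ∈ sysAt F := by
    show _ ∈ octads
    rw [hrep]; exact ho
  have h := (MulAction.mem_stabilizer_set' (Set.toFinite _)).1 hπ hmem
  rw [← hrep, ← map_image _ π _ (fun p => Equiv.Perm.ofSubtype_apply_coe π p) hF]
  exact h

theorem resAut_injective {F : Finset GolayPt} (h : ∀ g ∈ stab F, (∀ p, p ∉ F → g p = p) → g = 1) :
    Function.Injective (resAut F) := by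
  rw [injective_iff_map_eq_one]
  intro g hg
  refine Subtype.ext (h g g.2 fun p hp => ?_)
  have h1 : res F g = 1 := congrArg Subtype.val hg
  exact congrArg Subtype.val (Equiv.ext_iff.1 h1 ⟨p, hp⟩)

theorem res_ofSubtype {F : Finset GolayPt} (π : Equiv.Perm {p : GolayPt // p ∉ F}) (ρ : stab F)
    (h : ∀ p, p ∉ F → (ρ : Equiv.Perm GolayPt) p = Equiv.Perm.ofSubtype π p) : res F ρ = π := by
  refine Equiv.ext fun p => Subtype.ext ?_
  show (ρ : Equiv.Perm GolayPt) (p : GolayPt) = _
  rw [h _ p.2, Equiv.Perm.ofSubtype_apply_coe]

/-- The points 22 and 23. -/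
def pair : Finset GolayPt := {pt 22, pt 23}

/-- A basis of the words through both points. -/
def pairGens : List ℕ := octMasks.filter fun o => o.testBit 22 && o.testBit 23

/-- An octad through one of the two points. -/
def oneGen : ℕ := 4196943

theorem oneGen_mem : oneGen ∈ octMasks ∧ oneGen.testBit 22 = true ∧ oneGen.testBit 23 = false := by decide +kernel

/-- The octads through the last point. -/
def ptGens : List ℕ := octMasks.filter fun o => o.testBit 23

/-- A spanning set read off from the octads through both points. -/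
def pairBasis : List ℕ :=
  [4196943, 12584506, 12587685, 12594948, 12599513, 12624578, 12650793, 12717187, 12849992, 13108704, 13631886, 14682450]

/-- A spanning set read off from the octads through the last point. -/
def ptBasis : List ℕ :=
  [8391797, 8394986, 8398155, 8407702, 8421811, 8455014, 8521420, 8654232, 8919856, 9440193, 10486557, 12584506]

theorem basis_check : (codeGens.all fun g => (spanL pairBasis).contains g) = true ∧
    (pairBasis.tail.all fun g => pairGens.contains g) = true ∧
    (codeGens.all fun g => (spanL ptBasis).contains g) = true ∧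
    (ptBasis.all fun g => ptGens.contains g) = true := by decide +kernel

theorem octad_of_mask {m : ℕ} (hm : m ∈ octMasks) : toSet m ∈ octads := Golay.toSet_mem_octads hm

theorem one_aut : Function.Bijective (resAut ({pt 23} : Finset GolayPt)) := by
  obtain ⟨-, -, hspan, hsub⟩ := basis_check
  refine ⟨resAut_injective fun g hg h => Equiv.ext fun p => ?_, fun π => ?_⟩
  · by_cases hp : p ∉ ({pt 23} : Finset GolayPt)
    · exact h p hp
    · rw [not_not, Finset.mem_singleton] at hp
      have := hg.2
      subst hp
      have h' : g (pt 23) ∈ g • ({pt 23} : Finset GolayPt) := Finset.smul_mem_smul_finset (Finset.mem_singleton_self _)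
      rw [show g • ({pt 23} : Finset GolayPt) = {pt 23} from this, Finset.mem_singleton] at h'
      exact h'
  · set ρ := Equiv.Perm.ofSubtype (π : Equiv.Perm {p : GolayPt // p ∉ ({pt 23} : Finset GolayPt)}) with hρ
    have hg : ∀ g ∈ ptBasis, toSet g ∈ octads ∧ ({pt 23} : Finset GolayPt) ⊆ toSet g := fun g hg => by
      have h := List.mem_filter.1 (List.contains_iff_mem.1 (List.all_eq_true.1 hsub g hg))
      refine ⟨octad_of_mask h.1, Finset.singleton_subset_iff.2 ?_⟩
      rw [mem_toSet, idx_pt (by norm_num)]; exact h.2
    have hF : ρ • ({pt 23} : Finset GolayPt) = {pt 23} := by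
      rw [Finset.smul_finset_singleton, Equiv.Perm.smul_def, hρ,
        Equiv.Perm.ofSubtype_apply_of_not_mem _ (by simp)]
    have hM : ρ ∈ M24 := mem_M24_of_gens hspan fun g hgm => (extend_spec π.2 (hg g hgm).1 (hg g hgm).2).2.1
    exact ⟨⟨ρ, hM, hF⟩, Subtype.ext (res_ofSubtype _ _ fun p _ => rfl)⟩

theorem swap_not_mem : Equiv.swap (pt 22) (pt 23) ∉ M24 := by
  intro h
  have hs := smul_mem_supports h ((mem_wordsOfWeight_iff _ _).1 (octad_of_mask oneGen_mem.1) |>.1 |>
    fun hc => (mem_supports_iff _).2 hc)
  have : Equiv.swap (pt 22) (pt 23) • toSet oneGen = toSet (oneGen ^^^ (3 <<< 22)) := by decide +kernel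
  rw [this, mem_supports_iff, setNat_toSet (by decide +kernel)] at hs
  revert hs
  decide +kernel

theorem pair_check : (pt 22 : GolayPt) ≠ pt 23 ∧ pair.card = 2 ∧ toSet (3 <<< 22) = pair := by decide +kernel

theorem two_aut : Function.Bijective (resAut pair) := by
  obtain ⟨hspan, hsub, -, -⟩ := basis_check
  obtain ⟨hne, hcard, -⟩ := pair_check
  constructor
  · refine resAut_injective fun g hg h => ?_
    have hgF : g • pair = pair := hg.2
    have h22 : g (pt 22) ∈ pair := by
      rw [← hgF]; exact Finset.smul_mem_smul_finset (by simp [pair])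
    rw [pair, Finset.mem_insert, Finset.mem_singleton] at h22
    have h23 : g (pt 23) ∈ pair := by
      rw [← hgF]; exact Finset.smul_mem_smul_finset (by simp [pair])
    rw [pair, Finset.mem_insert, Finset.mem_singleton] at h23
    rcases h22 with e | e
    · refine Equiv.ext fun p => ?_
      by_cases hp : p ∉ pair
      · exact h p hp
      · rw [not_not, pair, Finset.mem_insert, Finset.mem_singleton] at hp
        rcases hp with rfl | rfl
        · exact e
        · exact h23.resolve_left fun e' => hne (g.injective (e.trans e'.symm))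
    · exfalso
      refine swap_not_mem ?_
      rw [show Equiv.swap (pt 22) (pt 23) = g from ?_]
      · exact hg.1
      refine Equiv.ext fun p => ?_
      by_cases hp : p ∉ pair
      · rw [h p hp]
        simp only [pair, Finset.mem_insert, Finset.mem_singleton, not_or] at hp
        exact Equiv.swap_apply_of_ne_of_ne hp.1 hp.2
      · rw [not_not, pair, Finset.mem_insert, Finset.mem_singleton] at hp
        rcases hp with rfl | rfl
        · rw [e, Equiv.swap_apply_left]
        · rw [Equiv.swap_apply_right]
          exact (h23.resolve_right fun e' => hne (g.injective (e.trans e'.symm))).symm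
  · intro π
    set π' := Equiv.Perm.ofSubtype (π : Equiv.Perm {p : GolayPt // p ∉ pair}) with hπ'
    have hg : ∀ g ∈ pairBasis.tail, toSet g ∈ octads ∧ pair ⊆ toSet g := fun g hg => by
      have h := List.mem_filter.1 (List.contains_iff_mem.1 (List.all_eq_true.1 hsub g hg))
      rw [Bool.and_eq_true] at h
      refine ⟨octad_of_mask h.1, ?_⟩
      rw [pair, Finset.insert_subset_iff, Finset.singleton_subset_iff, mem_toSet, mem_toSet, idx_pt (by norm_num),
        idx_pt (by norm_num)]
      exact h.2
    have hfix : ∀ q ∈ pair, π' q = q := fun q hq =>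
      Equiv.Perm.ofSubtype_apply_of_not_mem _ (by simpa using hq)
    have hF : π' • pair = pair := by
      show pair.image π' = pair
      rw [Finset.image_congr (g := id) (fun q hq => hfix q hq), Finset.image_id]
    set o := toSet oneGen with ho
    have hoS : o ∈ SUP := (octad_of_mask oneGen_mem.1).1
    have hoF : (pair ∩ o).card = 1 := by rw [ho]; decide +kernel
    set w := π' • o with hw
    have hwF : (w ∩ pair).card = 1 := by
      rw [hw, ← hF, ← Finset.smul_finset_inter, Finset.card_smul_finset, Finset.inter_comm]; exact hoF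
    have hsym : Equiv.Perm.ofSubtype ((π : Equiv.Perm {p : GolayPt // p ∉ pair})⁻¹) = π'⁻¹ := by
      rw [hπ', map_inv]
    have heven : ∀ g ∈ pairBasis.tail, Even (w ∩ toSet g).card := fun g hgm => by
      have h2 := (extend_spec (Subgroup.inv_mem _ π.2) (hg g hgm).1 (hg g hgm).2).2.1
      rw [hsym] at h2
      have he := even_inter_supports hoS h2
      rwa [← Finset.card_smul_finset π', Finset.smul_finset_inter, smul_inv_smul] at he
    have hgood : ∀ v : Finset GolayPt, (∀ g ∈ pairBasis.tail, Even (v ∩ toSet g).card) → Even (v ∩ o).card → v ∈ SUP := by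
      intro v hv hvo
      refine mem_supports_of_orth v (mem_span_supports hspan (P := fun t => Even (v ∩ t).card) (by simp) ?_ ?_)
      · intro s t hs ht
        show Even (v ∩ (s ∆ t)).card
        rw [Finset.inter_comm]
        rw [Finset.inter_comm] at hs ht
        have := inter_symmDiff_card s t v
        rw [Nat.even_iff] at hs ht ⊢
        omega
      · intro g hgm
        rcases List.mem_cons.1 (show g ∈ oneGen :: pairBasis.tail from hgm) with rfl | h
        · exact hvo
        · exact hv g h
    have hgens : ∀ g ∈ pairBasis.tail, π' • toSet g ∈ SUP ∧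
        (Equiv.swap (pt 22) (pt 23) * π') • toSet g ∈ SUP := fun g hgm => by
      have hsp := (extend_spec π.2 (hg g hgm).1 (hg g hgm).2).2
      refine ⟨hsp.1, ?_⟩
      have hsub' : pair ⊆ π' • toSet g := by
        rw [← hF]; exact Finset.smul_finset_subset_smul_finset (hg g hgm).2
      rw [mul_smul]
      convert hsp.1 using 1
      refine Finset.ext fun q => ?_
      rw [← Finset.inv_smul_mem_iff, Equiv.Perm.smul_def, Equiv.swap_inv]
      have a1 : pt 22 ∈ π' • toSet g := hsub' (by simp [pair])
      have a2 : pt 23 ∈ π' • toSet g := hsub' (by simp [pair])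
      by_cases q1 : q = pt 22
      · subst q1; rw [Equiv.swap_apply_left]; exact iff_of_true a2 a1
      by_cases q2 : q = pt 23
      · subst q2; rw [Equiv.swap_apply_right]; exact iff_of_true a1 a2
      rw [Equiv.swap_apply_of_ne_of_ne q1 q2]
    have hswapw : Equiv.swap (pt 22) (pt 23) • w = w ∆ pair := by
      refine Finset.ext fun q => ?_
      rw [← Finset.inv_smul_mem_iff, Equiv.Perm.smul_def, Equiv.swap_inv, Finset.mem_symmDiff]
      obtain ⟨r, hr⟩ := Finset.card_eq_one.1 hwF
      have hiff : ¬(pt 22 ∈ w ↔ pt 23 ∈ w) := fun hh => by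
        have hr' : r = pt 22 ∨ r = pt 23 := by
          have := (Finset.mem_inter.1 (hr ▸ Finset.mem_singleton_self r)).2
          simpa [pair] using this
        have hrw : r ∈ w := (Finset.mem_inter.1 (hr ▸ Finset.mem_singleton_self r)).1
        have both : pt 22 ∈ w ∧ pt 23 ∈ w := by
          rcases hr' with rfl | rfl
          · exact ⟨hrw, hh.1 hrw⟩
          · exact ⟨hh.2 hrw, hrw⟩
        have e1 : pt 22 ∈ w ∩ pair := Finset.mem_inter.2 ⟨both.1, by simp [pair]⟩
        have e2 : pt 23 ∈ w ∩ pair := Finset.mem_inter.2 ⟨both.2, by simp [pair]⟩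
        rw [hr, Finset.mem_singleton] at e1 e2
        exact hne (e1.trans e2.symm)
      have hp22 : pt 22 ∈ pair := Finset.mem_insert_self _ _
      have hp23 : pt 23 ∈ pair := Finset.mem_insert_of_mem (Finset.mem_singleton_self _)
      by_cases q1 : q = pt 22
      · subst q1
        rw [Equiv.swap_apply_left]
        constructor
        · exact fun h => Or.inr ⟨hp22, fun h' => hiff (iff_of_true h' h)⟩
        · rintro (⟨-, h⟩ | ⟨-, h⟩)
          · exact absurd hp22 h
          · by_contra h'; exact hiff (iff_of_false h h')
      by_cases q2 : q = pt 23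
      · subst q2
        rw [Equiv.swap_apply_right]
        constructor
        · exact fun h => Or.inr ⟨hp23, fun h' => hiff (iff_of_true h h')⟩
        · rintro (⟨-, h⟩ | ⟨-, h⟩)
          · exact absurd hp23 h
          · by_contra h'; exact hiff (iff_of_false h' h)
      rw [Equiv.swap_apply_of_ne_of_ne q1 q2]
      have hq : q ∉ pair := fun h => by
        rcases Finset.mem_insert.1 h with e | e
        · exact q1 e
        · exact q2 (Finset.mem_singleton.1 e)
      exact ⟨fun h => Or.inl ⟨h, hq⟩, fun h => h.elim And.left fun h' => absurd h'.1 hq⟩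
    have hswapF : Equiv.swap (pt 22) (pt 23) • pair = pair := by decide +kernel
    by_cases hwo : Even (w ∩ o).card
    · have hM : π' ∈ M24 := mem_M24_of_gens hspan fun g hgm => by
        rcases List.mem_cons.1 (show g ∈ oneGen :: pairBasis.tail from hgm) with rfl | h
        · exact hgood w heven hwo
        · exact (hgens g h).1
      exact ⟨⟨π', hM, hF⟩, Subtype.ext (res_ofSubtype _ _ fun p _ => rfl)⟩
    · have hM : Equiv.swap (pt 22) (pt 23) * π' ∈ M24 := mem_M24_of_gens hspan fun g hgm => by
        rcases List.mem_cons.1 (show g ∈ oneGen :: pairBasis.tail from hgm) with rfl | h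
        · rw [mul_smul, ← ho, ← hw, hswapw]
          refine hgood _ (fun g' hg' => ?_) ?_
          · have e := inter_symmDiff_card w pair (toSet g')
            have := heven g' hg'
            rw [Finset.inter_eq_left.2 (hg g' hg').2, hcard] at e
            rw [Nat.even_iff] at this ⊢
            omega
          · have e := inter_symmDiff_card w pair o
            rw [hoF] at e
            rw [Nat.even_iff] at hwo ⊢
            omega
        · exact (hgens g h).2
      refine ⟨⟨Equiv.swap (pt 22) (pt 23) * π', hM, ?_⟩, Subtype.ext (res_ofSubtype _ _ fun p hp => ?_)⟩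
      · show (Equiv.swap (pt 22) (pt 23) * π') • pair = pair
        rw [mul_smul, hF, hswapF]
      · show Equiv.swap (pt 22) (pt 23) (π' p) = π' p
        have h2 : π' p ∉ pair := by
          rw [hπ', Equiv.Perm.ofSubtype_apply_of_mem (p := fun q => q ∉ pair) _ hp]; exact ((π : Equiv.Perm {q : GolayPt // q ∉ pair}) ⟨p, hp⟩).2
        simp only [pair, Finset.mem_insert, Finset.mem_singleton, not_or] at h2
        exact Equiv.swap_apply_of_ne_of_ne h2.1 h2.2

end Cfsg.Lib.SteinerCert.Puncture
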