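import Mathlib
import Cfsg.Agent.Lib.SteinerCert.Code24
import Cfsg.Agent.Lib.Steiner.Basic
import Cfsg.Agent.Lib.Golay.M24

/-! The code spanned by the blocks of a Steiner system on 24 points. -/

set_option autoImplicit false

namespace Cfsg.Lib.SteinerCert.Steiner24

open Finset Cfsg Cfsg.Lib.Code.AbstractGolay Code24
open scoped Pointwise

local notation "V" => (Fin 24 → ZMod 2)

variable {B : Set (Finset (Fin 24))}

/-- The code of the blocks. -/
def code (B : Set (Finset (Fin 24))) : Submodule (ZMod 2) V := Submodule.span (ZMod 2) (ind '' B)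

theorem mem_code {b : Finset (Fin 24)} (hb : b ∈ B) : ind b ∈ code B := Submodule.subset_span ⟨b, hb, rfl⟩

theorem inter_cases (hB : IsSteinerSystem 5 8 B) {b c : Finset (Fin 24)} (hb : b ∈ B) (hc : c ∈ B) :
    Even (b ∩ c).card := by
  by_cases hbc : b = c
  · subst hbc; rw [Finset.inter_self, hB.1 b hb]; decide
  have e1 := Lib.Steiner.meet_equation hB hb (s := 1) (by norm_num) 253 (by rw [Fintype.card_fin]; rfl) (by norm_num)
  have e2 := Lib.Steiner.meet_equation hB hb (s := 2) (by norm_num) 77 (by rw [Fintype.card_fin]; rfl) (by norm_num)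
  have e3 := Lib.Steiner.meet_equation hB hb (s := 3) (by norm_num) 21 (by rw [Fintype.card_fin]; rfl) (by norm_num)
  have e4 := Lib.Steiner.meet_equation hB hb (s := 4) (by norm_num) 5 (by rw [Fintype.card_fin]; rfl) (by norm_num)
  simp [Finset.sum_range_succ, Nat.choose] at e1 e2 e3 e4
  have hpos := Lib.Steiner.meetNum_pos hc hbc
  have hlt : (b ∩ c).card < 5 := by
    by_contra h; exact hbc (Lib.Steiner.eq_of_le_inter hB hb hc (not_lt.1 h))
  interval_cases h : (b ∩ c).card <;> first | decide | omega

theorem orth (hB : IsSteinerSystem 5 8 B) : ∀ v ∈ code B, ∀ w ∈ code B, ∑ i, v i * w i = 0 := by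
  intro v hv w hw
  induction hv using Submodule.span_induction with
  | zero => simp
  | add x y _ _ hx hy => simp [add_mul, Finset.sum_add_distrib, hx, hy]
  | smul c x _ hx => simp [mul_assoc, ← Finset.mul_sum, hx]
  | mem x hx =>
    obtain ⟨b, hb, rfl⟩ := hx
    induction hw using Submodule.span_induction with
    | zero => simp
    | add x y _ _ hx hy => simp [mul_add, Finset.sum_add_distrib, hx, hy]
    | smul c x _ hx => simp [mul_left_comm, ← Finset.mul_sum, hx]
    | mem y hy =>
      obtain ⟨c, hc, rfl⟩ := hy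
      rw [dot_eq, supp_ind, supp_ind, ZMod.natCast_eq_zero_iff_even]
      exact inter_cases hB hb hc

theorem four_dvd_code (hB : IsSteinerSystem 5 8 B) {w : V} (hw : w ∈ code B) : 4 ∣ (supp w).card := by
  have key : w ∈ code B ∧ 4 ∣ (supp w).card := by
    induction hw using Submodule.span_induction with
    | zero => exact ⟨Submodule.zero_mem _, by simp [supp]⟩
    | mem x hx =>
      obtain ⟨b, hb, rfl⟩ := hx
      exact ⟨mem_code hb, by rw [supp_ind, hB.1 b hb]; norm_num⟩
    | add x y _ _ hx hy =>
      refine ⟨Submodule.add_mem _ hx.1 hy.1, ?_⟩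
      have hev := orth hB x hx.1 y hy.1
      rw [dot_eq, ZMod.natCast_eq_zero_iff_even] at hev
      obtain ⟨k, hk⟩ := hev
      rw [supp_add]
      have := card_symmDiff_add (supp x) (supp y)
      obtain ⟨a, ha⟩ := hx.2
      obtain ⟨b, hb⟩ := hy.2
      omega
    | smul c x _ hx =>
      by_cases hc : c = 0
      · subst hc; exact ⟨by simp, by simp [supp]⟩
      · rw [eq_one_of_ne hc, one_smul]; exact hx
  exact key.2

theorem exists_block_single (hB : IsSteinerSystem 5 8 B) {u : Finset (Fin 24)} (hu : u.card ≤ 4) {a : Fin 24}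
    (ha : a ∈ u) : ∃ b ∈ B, b ∩ u = {a} := by
  classical
  have h1 := Lib.Steiner.through_mul hB {a} (by simp)
  have h2 : ∀ x, x ≠ a → ((Lib.Steiner.blocks B).filter fun b => {a, x} ⊆ b).card = 77 := by
    intro x hx
    have := Lib.Steiner.through_mul hB {a, x} ((Finset.card_le_two).trans (by norm_num))
    rw [Finset.card_pair (Ne.symm hx), Fintype.card_fin] at this
    norm_num [Nat.choose] at this
    omega
  rw [Finset.card_singleton, Fintype.card_fin] at h1
  norm_num [Nat.choose] at h1
  by_contra hne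
  push Not at hne
  have hsub : ((Lib.Steiner.blocks B).filter fun b => a ∈ b) ⊆
      (u.erase a).biUnion fun x => (Lib.Steiner.blocks B).filter fun b => {a, x} ⊆ b := by
    intro b hb
    rw [Finset.mem_filter, Lib.Steiner.mem_blocks] at hb
    have hx : ∃ x ∈ u, x ≠ a ∧ x ∈ b := by
      by_contra hno
      push Not at hno
      refine hne b hb.1 (Finset.eq_singleton_iff_unique_mem.2 ⟨Finset.mem_inter.2 ⟨hb.2, ha⟩, fun x hx => ?_⟩)
      by_contra hxa
      exact hno x (Finset.mem_inter.1 hx).2 hxa (Finset.mem_inter.1 hx).1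
    obtain ⟨x, hxu, hxa, hxb⟩ := hx
    simp only [Finset.mem_biUnion, Finset.mem_erase, Finset.mem_filter, Lib.Steiner.mem_blocks]
    exact ⟨x, ⟨hxa, hxu⟩, hb.1, Finset.insert_subset hb.2 (Finset.singleton_subset_iff.2 hxb)⟩
  have h3 := (Finset.card_le_card hsub).trans (Finset.card_biUnion_le_card_mul (u.erase a) _ 77
    fun x hx => (h2 x (Finset.mem_erase.1 hx).1).le)
  rw [Finset.card_erase_of_mem ha] at h3
  have h5 : (u.card - 1) * 77 ≤ 231 := by
    calc (u.card - 1) * 77 ≤ 3 * 77 := Nat.mul_le_mul_right _ (by omega)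
      _ = 231 := by norm_num
  omega

theorem weight (hB : IsSteinerSystem 5 8 B) : ∀ w ∈ code B, w ≠ 0 → 8 ≤ hammingNorm w := by
  intro w hw hne
  rw [hammingNorm_eq]
  by_contra hlt
  have h4 := four_dvd_code hB hw
  have hpos : (supp w).Nonempty := by
    by_contra h
    refine hne (funext fun i => ?_)
    by_contra hi
    exact h ⟨i, mem_supp.2 hi⟩
  obtain ⟨a, ha⟩ := hpos
  have hle : (supp w).card ≤ 4 := by omega
  obtain ⟨b, hb, hbu⟩ := exists_block_single hB hle ha
  have := orth hB (ind b) (mem_code hb) w hw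
  rw [dot_eq, supp_ind, hbu, Finset.card_singleton] at this
  exact absurd this (by decide)

theorem reduce (hB : IsSteinerSystem 5 8 B) (x : Fin 24) :
    ∀ (m : ℕ) (s : Finset (Fin 24)), s.card = m → ∃ r ∈ reps x, Cong (code B) s r := by
  intro m
  induction m using Nat.strong_induction_on with
  | _ m ih =>
    intro s hs
    rcases (by omega : m ≤ 3 ∨ m = 4 ∨ 5 ≤ m) with h | h | h
    · exact ⟨s, mem_reps.2 (Or.inl (by omega)), cong_refl _ s⟩
    · by_cases hx : x ∈ s
      · exact ⟨s, mem_reps.2 (Or.inr ⟨by omega, hx⟩), cong_refl _ s⟩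
      obtain ⟨b, ⟨hb, hsub⟩, -⟩ := hB.2 (insert x s) (by rw [Finset.card_insert_of_notMem hx]; omega)
      have hsb : s ⊆ b := (Finset.subset_insert x s).trans hsub
      refine ⟨b \ s, mem_reps.2 (Or.inr ⟨by rw [card_sdiff_of_subset hsb, hB.1 b hb]; omega,
        Finset.mem_sdiff.2 ⟨hsub (Finset.mem_insert_self x s), hx⟩⟩), ?_⟩
      rw [Cong, ← ind_supp (ind s + ind (b \ s)), supp_add, supp_ind, supp_ind, Disjoint.symmDiff_eq_sup
        Finset.disjoint_sdiff, Finset.sup_eq_union, Finset.union_sdiff_of_subset hsb]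
      exact mem_code hb
    · obtain ⟨u, hu, hu5⟩ := Finset.exists_subset_card_eq (show 5 ≤ s.card by omega)
      obtain ⟨b, ⟨hb, hub⟩, -⟩ := hB.2 u hu5
      have hcard : 5 ≤ (s ∩ b).card := hu5 ▸ Finset.card_le_card (Finset.subset_inter hu hub)
      have hsd := card_symmDiff_add s b
      obtain ⟨r, hr, hcong⟩ := ih (symmDiff s b).card (by have := hB.1 b hb; omega) _ rfl
      refine ⟨r, hr, cong_trans _ ?_ hcong⟩
      rw [Cong, ← ind_supp (ind s + ind (symmDiff s b)), supp_add, supp_ind, supp_ind, symmDiff_symmDiff_cancel_left]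
      exact mem_code hb

theorem dim (hB : IsSteinerSystem 5 8 B) : Module.finrank (ZMod 2) (code B) = 12 := by
  classical
  have hle : Module.finrank (ZMod 2) (code B) ≤ 12 := by
    let L : V →ₗ[ZMod 2] (code B →ₗ[ZMod 2] ZMod 2) :=
      LinearMap.mk₂ (ZMod 2) (fun (v : V) (d : code B) => ∑ i, v i * (d : V) i)
        (fun a b d => by simp [add_mul, Finset.sum_add_distrib])
        (fun c a d => by simp [Finset.mul_sum, mul_assoc])
        (fun a d e => by simp [mul_add, Finset.sum_add_distrib])
        (fun c a d => by simp [Finset.mul_sum, mul_left_comm])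
    have hker : code B ≤ LinearMap.ker L := fun v hv => by
      rw [LinearMap.mem_ker]
      exact LinearMap.ext fun d => orth hB v hv d d.2
    have hrange : LinearMap.range L = ⊤ := by
      rw [LinearMap.range_eq_top]
      intro φ
      obtain ⟨ψ, hψ⟩ := LinearMap.exists_extend φ
      refine ⟨fun i => ψ (Pi.single i 1), LinearMap.ext fun d => ?_⟩
      show ∑ i, ψ (Pi.single i 1) * (d : V) i = φ d
      rw [← hψ, LinearMap.comp_apply, Submodule.subtype_apply]
      conv_rhs => rw [pi_eq_sum_univ' (d : V)]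
      rw [map_sum]
      exact Finset.sum_congr rfl fun i _ => by rw [map_smul, smul_eq_mul, mul_comm]
    have h1 := LinearMap.finrank_range_add_finrank_ker L
    rw [hrange, finrank_top, Subspace.dual_finrank_eq, Module.finrank_fintype_fun_eq_card, Fintype.card_fin] at h1
    have := Submodule.finrank_mono hker
    omega
  have hfin : Fintype (V ⧸ code B) := Fintype.ofFinite _
  have hsurj : Function.Surjective (fun r : {r // r ∈ reps (0 : Fin 24)} =>
      (Submodule.Quotient.mk (ind r.1) : V ⧸ code B)) := by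
    intro q
    induction q using Submodule.Quotient.induction_on with
    | _ w =>
      obtain ⟨r, hr, hc⟩ := reduce hB 0 _ (supp w) rfl
      refine ⟨⟨r, hr⟩, (Submodule.Quotient.eq _).2 ?_⟩
      rw [Cong, ind_supp] at hc
      rw [sub_eq_add', add_comm]; exact hc
  have h4096 := Fintype.card_le_of_surjective _ hsurj
  rw [Fintype.card_coe, card_reps, Module.card_eq_pow_finrank (K := ZMod 2), ZMod.card] at h4096
  have hq := Submodule.finrank_quotient_add_finrank (code B)
  rw [Module.finrank_fintype_fun_eq_card, Fintype.card_fin] at hq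
  have : Module.finrank (ZMod 2) (V ⧸ code B) ≤ 12 :=
    (Nat.pow_le_pow_iff_right (by norm_num)).1 (h4096.trans (by norm_num))
  omega

theorem hyp (hB : IsSteinerSystem 5 8 B) : Hyp (code B) := ⟨dim hB, orth hB, weight hB⟩

theorem blocks_eq (hB : IsSteinerSystem 5 8 B) : B = {O | IsOctad (code B) O} := by
  ext O
  refine ⟨fun h => ⟨mem_code h, hB.1 O h⟩, fun hO => ?_⟩
  obtain ⟨u, hu, hu5⟩ := Finset.exists_subset_card_eq (show 5 ≤ O.card by rw [hO.2]; norm_num)
  obtain ⟨b, ⟨hb, hub⟩, -⟩ := hB.2 u hu5
  rwa [octad_unique (hyp hB).weight hO ⟨mem_code hb, hB.1 b hb⟩ hu5.ge hu hub]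

theorem iso_octads (hnil : Code24.Good []) {α : Type*} [Fintype α] [DecidableEq α] (hα : Fintype.card α = 24)
    {B : Set (Finset α)} (hB : IsSteinerSystem 5 8 B) :
    ∃ e : α ≃ GolayPt, (fun b : Finset α => b.image e) '' B = octads := by
  classical
  let e0 : α ≃ Fin 24 := Fintype.equivFinOfCardEq hα
  have hB' := steiner_image e0 hB
  obtain ⟨e, he⟩ := hnil _ (hyp hB') (fun b hb => absurd hb List.not_mem_nil)
  refine ⟨e0.trans e, ?_⟩
  have h1 : (fun b : Finset α => b.image (e0.trans e)) '' B =
      (fun c : Finset (Fin 24) => c.image e) '' ((fun b : Finset α => b.image e0) '' B) := by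
    rw [Set.image_image]
    exact Set.image_congr fun b _ => by rw [Finset.image_image]; rfl
  rw [h1]
  conv_lhs => rw [blocks_eq hB']
  ext s
  rw [octads, Lib.Golay.mem_wordsOfWeight_iff, ← Lib.Golay.mem_supports_iff, Lib.Golay.pop_setNat]
  constructor
  · rintro ⟨O, ⟨hO, h8⟩, rfl⟩
    refine ⟨⟨fun p => ind O (e.symm p), (he _).2 (by simpa using hO), ?_⟩, by
      rw [Finset.card_image_of_injective _ e.injective, h8]⟩
    ext p
    simp [support₂, ind, Finset.mem_image, ← e.eq_symm_apply]
  · rintro ⟨⟨w, hw, rfl⟩, h8⟩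
    refine ⟨(support₂ w).image e.symm, ⟨?_, by rw [Finset.card_image_of_injective _ e.symm.injective, h8]⟩, ?_⟩
    · convert (he w).1 hw using 1
      funext i
      by_cases h : w (e i) = 0
      · simp [ind, support₂, Finset.mem_image, e.symm_apply_eq, h]
      · simp [ind, support₂, Finset.mem_image, e.symm_apply_eq, eq_one_of_ne h]
    · simp [Finset.image_image]

theorem image_aut {α β : Type*} [DecidableEq α] [DecidableEq β] (e : α ≃ β) {B : Set (Finset α)}
    {B' : Set (Finset β)} (h : (fun b : Finset α => b.image e) '' B = B') (π : Equiv.Perm α) :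
    e.permCongr π ∈ setSystemAut B' ↔ π ∈ setSystemAut B := by
  rw [MulAction.mem_stabilizer_iff, MulAction.mem_stabilizer_iff, ← h]
  have key : e.permCongr π • ((fun b : Finset α => b.image e) '' B) = (fun b : Finset α => b.image e) '' (π • B) := by
    rw [← Set.image_smul, ← Set.image_smul, Set.image_image, Set.image_image]
    refine Set.image_congr fun b _ => ?_
    rw [Finset.smul_finset_def, Finset.smul_finset_def, Finset.image_image, Finset.image_image]
    exact Finset.image_congr fun i _ => by simp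
  rw [key]
  exact (Set.image_injective.2 (Finset.image_injective e.injective)).eq_iff

/-- Conjugation between automorphism groups. -/
def autEquiv {α β : Type*} [DecidableEq α] [DecidableEq β] (e : α ≃ β) {B : Set (Finset α)}
    {B' : Set (Finset β)} (h : (fun b : Finset α => b.image e) '' B = B') : setSystemAut B ≃* setSystemAut B' where
  toFun π := ⟨e.permCongr π, (image_aut e h π).2 π.2⟩
  invFun π := ⟨e.symm.permCongr π, (image_aut e h _).1 (by convert π.2 using 1; ext; simp)⟩
  left_inv π := by apply Subtype.ext; ext; simp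
  right_inv π := by apply Subtype.ext; ext; simp
  map_mul' a b := by apply Subtype.ext; ext; simp

theorem autEquiv_apply {α β : Type*} [DecidableEq α] [DecidableEq β] (e : α ≃ β) {B : Set (Finset α)}
    {B' : Set (Finset β)} (h : (fun b : Finset α => b.image e) '' B = B') (π : setSystemAut B) (a : α) :
    ((autEquiv e h π : setSystemAut B') : Equiv.Perm β) (e a) = e ((π : Equiv.Perm α) a) := by
  simp [autEquiv]

end Cfsg.Lib.SteinerCert.Steiner24
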