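import Mathlib
import Cfsg.Agent.Lib.SteinerCert.Puncture
import Cfsg.Agent.Lib.SteinerCert.Steiner24
import Cfsg.Agent.Lib.SteinerCert.Data22
import Cfsg.Agent.Lib.SteinerCert.Data23

/-! The automorphism groups of the derived Steiner systems on 23 and 22 points. -/

set_option autoImplicit false
set_option maxRecDepth 100000
set_option Elab.async false

namespace Cfsg.Lib.SteinerCert.PunctureGroups

open Finset Cfsg Cfsg.Lib.Golay Puncture
open Steiner24 (autEquiv autEquiv_apply)
open Code24 (ptEquiv)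
open scoped Pointwise

theorem image_toF (m : ℕ) : (toF 24 m).image ptEquiv = toSet m := by
  ext p
  obtain ⟨i, rfl⟩ := ptEquiv.surjective p
  rw [Finset.mem_image, mem_toSet]
  constructor
  · rintro ⟨j, hj, e⟩
    obtain rfl := ptEquiv.injective e
    show m.testBit (idx (pt j.val)) = true
    rw [idx_pt j.isLt]; exact mem_toF.1 hj
  · intro h
    refine ⟨i, mem_toF.2 ?_, rfl⟩
    rwa [show idx (ptEquiv i) = i.val from idx_pt i.isLt] at h

theorem to_golay {FM : ℕ} {std : List ℕ} {F : Finset GolayPt} (hF : (toF 24 FM).image ptEquiv = F)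
    (hstd : ∀ o : Finset GolayPt, (o ∈ octads ∧ F ⊆ o) ↔ ∃ m ∈ std, toSet m = o)
    {α : Type*} [Fintype α] [DecidableEq α] {B : Set (Finset α)} (e : α ≃ {x : Fin 24 // x ∉ toF 24 FM})
    (he : (fun b : Finset α => b.image e) '' B =
      {s | s.map (Function.Embedding.subtype _) ∪ toF 24 FM ∈ sysOf 24 std}) :
    ∃ e' : α ≃ {p : GolayPt // p ∉ F}, (fun b : Finset α => b.image e') '' B = sysAt F := by
  let c : {x : Fin 24 // x ∉ toF 24 FM} ≃ {p : GolayPt // p ∉ F} := Equiv.subtypeEquiv ptEquiv fun x => by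
    rw [← hF, Finset.mem_image]
    exact not_congr ⟨fun h => ⟨x, h, rfl⟩, fun ⟨y, hy, e⟩ => ptEquiv.injective e ▸ hy⟩
  refine ⟨e.trans c, ?_⟩
  have h1 : (fun b : Finset α => b.image (e.trans c)) '' B =
      (fun u => u.image c) '' ((fun b : Finset α => b.image e) '' B) := by
    rw [Set.image_image]
    exact Set.image_congr fun b _ => by rw [Finset.image_image]; rfl
  rw [h1, he]
  have key : ∀ s : Finset {x : Fin 24 // x ∉ toF 24 FM},
      (s.image c).map (Function.Embedding.subtype _) ∪ F =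
        (s.map (Function.Embedding.subtype _) ∪ toF 24 FM).image ptEquiv := fun s => by
    rw [Finset.image_union, hF]
    congr 1
    rw [Finset.map_eq_image, Finset.map_eq_image, Finset.image_image, Finset.image_image]
    rfl
  ext u
  constructor
  · rintro ⟨s, hs, rfl⟩
    obtain ⟨m, hm, e'⟩ : _ ∈ sysOf 24 std := hs
    show _ ∈ octads
    rw [key, ← e', image_toF]
    exact ((hstd _).2 ⟨m, hm, rfl⟩).1
  · intro hu
    refine ⟨u.image c.symm, ?_, by simp [Finset.image_image]⟩
    obtain ⟨m, hm, e'⟩ := (hstd _).1 ⟨hu, Finset.subset_union_right⟩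
    refine ⟨m, hm, Finset.image_injective ptEquiv.injective ?_⟩
    rw [image_toF, e', ← key]
    simp [Finset.image_image]

theorem std_iff {FM : ℕ} {std : List ℕ} (hlt : FM < 2 ^ 24) (hFM : (octMasks.all fun o => !(FM &&& o == FM) || std.contains o) = true)
    (hsub : (std.all fun m => octMasks.contains m && (FM &&& m == FM)) = true) (o : Finset GolayPt) :
    (o ∈ octads ∧ toSet FM ⊆ o) ↔ ∃ m ∈ std, toSet m = o := by
  simp only [List.all_eq_true, Bool.or_eq_true, Bool.not_eq_true', beq_eq_false_iff_ne, Bool.and_eq_true, beq_iff_eq]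
    at hFM hsub
  constructor
  · rintro ⟨ho, hF⟩
    have hm := (mem_octads_iff o).1 ho
    refine ⟨setNat o, ?_, toSet_setNat o⟩
    rcases hFM _ hm with h | h
    · exfalso
      refine h (Nat.eq_of_testBit_eq fun i => ?_)
      rw [Nat.testBit_and]
      by_cases hb : FM.testBit i = true
      · rw [hb, Bool.true_and]
        by_cases hi : i < 24
        · have : pt i ∈ o := hF (by rw [mem_toSet, idx_pt hi]; exact hb)
          rw [← toSet_setNat o, mem_toSet, idx_pt hi] at this
          exact this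
        · exfalso
          rw [Nat.testBit_lt_two_pow (hlt.trans_le (Nat.pow_le_pow_right two_pos (not_lt.1 hi)))] at hb
          exact Bool.false_ne_true hb
      · rw [Bool.not_eq_true] at hb; rw [hb, Bool.false_and]
    · exact List.contains_iff_mem.1 h
  · rintro ⟨m, hm, rfl⟩
    obtain ⟨hc, hand⟩ := hsub m hm
    refine ⟨toSet_mem_octads (List.contains_iff_mem.1 hc), fun p hp => ?_⟩
    rw [mem_toSet] at hp ⊢
    rw [← hand, Nat.testBit_and, Bool.and_eq_true] at hp
    exact hp.2

theorem lift_five {F : Finset GolayPt} {k r : ℕ} (hkr : k + r = 5) (f f' : Fin r ↪ GolayPt)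
    (hf : ∀ i, f i ∈ F) (hf' : ∀ i, f' i ∈ F) (x y : Fin k ↪ {p : GolayPt // p ∉ F}) :
    ∃ g ∈ M24, (∀ i, g (x i : GolayPt) = (y i : GolayPt)) ∧ ∀ i, g (f i) = f' i := by
  haveI := five_transitive
  let mk : (Fin r ↪ GolayPt) → (∀ _ : Fin k, GolayPt) → Fin 5 → GolayPt := fun u v i =>
    Sum.elim v u (finSumFinEquiv.symm (Fin.cast hkr.symm i))
  have hmk : ∀ (u : Fin r ↪ GolayPt) (z : Fin k ↪ {p : GolayPt // p ∉ F}), (∀ i, u i ∈ F) →
      Function.Injective (mk u fun i => (z i : GolayPt)) := fun u z hu =>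
    (Function.Injective.sumElim (Subtype.val_injective.comp z.injective) u.injective
      fun a b e => (z a).2 (by rw [show ((z a : GolayPt)) = u b from e]; exact hu b)).comp (finSumFinEquiv.symm.injective.comp (Fin.cast_injective _))
  obtain ⟨g, hg⟩ := MulAction.exists_smul_eq M24 (⟨_, hmk f x hf⟩ : Fin 5 ↪ GolayPt) ⟨_, hmk f' y hf'⟩
  have h : ∀ j : Fin k ⊕ Fin r, (g : Equiv.Perm GolayPt) (Sum.elim (fun i => (x i : GolayPt)) f j) =
      Sum.elim (fun i => (y i : GolayPt)) f' j := fun j => by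
    have := DFunLike.congr_fun hg (Fin.cast hkr (finSumFinEquiv j))
    simpa [mk, Equiv.Perm.smul_def, Subgroup.smul_def] using this
  exact ⟨g, g.2, fun i => h (Sum.inl i), fun i => h (Sum.inr i)⟩

theorem transitive_of {α : Type*} [DecidableEq α] {F : Finset GolayPt} {k : ℕ} {B : Set (Finset α)}
    (e : α ≃ {p : GolayPt // p ∉ F}) (he : (fun b : Finset α => b.image e) '' B = sysAt F)
    (hbij : Function.Bijective (resAut F))
    (htr : ∀ x y : Fin k ↪ {p : GolayPt // p ∉ F}, ∃ g : stab F, ∀ i, (g : Equiv.Perm GolayPt) (x i : GolayPt) = y i) :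
    MulAction.IsMultiplyPretransitive (setSystemAut B) α k := by
  refine ⟨fun x y => ?_⟩
  obtain ⟨g, hg⟩ := htr (x.trans e.toEmbedding) (y.trans e.toEmbedding)
  refine ⟨(autEquiv e he).symm (resAut F g), DFunLike.ext _ _ fun i => e.injective ?_⟩
  have h := autEquiv_apply e he ((autEquiv e he).symm (resAut F g)) (x i)
  show e ((((autEquiv e he).symm (resAut F g) : setSystemAut B) : Equiv.Perm α) (x i)) = e (y i)
  rw [← h, MulEquiv.apply_symm_apply]
  exact Subtype.ext (hg i)

theorem fm_sets : toSet Fam.S23.fm = ({pt 23} : Finset GolayPt) ∧ toSet Fam.S22.fm = pair := by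
  decide +kernel

theorem std23 (o : Finset GolayPt) : (o ∈ octads ∧ ({pt 23} : Finset GolayPt) ⊆ o) ↔ ∃ m ∈ Fam.S23.std, toSet m = o := by
  rw [← fm_sets.1]; exact std_iff (by decide +kernel) (by decide +kernel) (by decide +kernel) o

theorem std22 (o : Finset GolayPt) : (o ∈ octads ∧ pair ⊆ o) ↔ ∃ m ∈ Fam.S22.std, toSet m = o := by
  rw [← fm_sets.2]; exact std_iff (by decide +kernel) (by decide +kernel) (by decide +kernel) o

theorem aut23 {α : Type*} [Fintype α] [DecidableEq α] (hα : Fintype.card α = 23) {B : Set (Finset α)}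
    (hB : IsSteinerSystem 4 7 B) :
    Nonempty (fixer ({pt 23} : Finset GolayPt) ≃* setSystemAut B) ∧
      MulAction.IsMultiplyPretransitive (setSystemAut B) α 4 := by
  have hF : (toF 24 Fam.S23.fm).card = 1 := by decide +kernel
  obtain ⟨ι, hι⟩ := Derived.exists_emb (α := α) Fam.S23.fm (by omega)
  obtain ⟨e0, he0⟩ := Derived.model ι hι Fam.S23.good_nil (Derived.fam23 hα hB _ hF ι hι)
  obtain ⟨e, he⟩ := to_golay (F := {pt 23}) (by rw [image_toF]; exact fm_sets.1) std23 e0 he0
  have hstab : stab ({pt 23} : Finset GolayPt) = fixer {pt 23} := by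
    ext g
    constructor
    · rintro ⟨hg, h⟩
      refine ⟨hg, fun a ha => ?_⟩
      rw [Finset.mem_singleton] at ha; subst ha
      have h' : g (pt 23) ∈ g • ({pt 23} : Finset GolayPt) := Finset.smul_mem_smul_finset (Finset.mem_singleton_self _)
      rw [show g • ({pt 23} : Finset GolayPt) = {pt 23} from h, Finset.mem_singleton] at h'
      exact h'
    · rintro ⟨hg, h⟩
      refine ⟨hg, ?_⟩
      show g • ({pt 23} : Finset GolayPt) = {pt 23}
      rw [Finset.smul_finset_singleton, Equiv.Perm.smul_def, h _ (Finset.mem_singleton_self _)]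
  refine ⟨⟨(MulEquiv.subgroupCongr hstab.symm).trans
    ((MulEquiv.ofBijective (resAut _) one_aut).trans (autEquiv e he).symm)⟩,
    transitive_of e he one_aut fun x y => ?_⟩
  obtain ⟨g, hg, hxy, hf⟩ := lift_five (F := ({pt 23} : Finset GolayPt)) (k := 4) (r := 1) rfl
    ⟨fun _ => pt 23, fun a b _ => Subsingleton.elim a b⟩ ⟨fun _ => pt 23, fun a b _ => Subsingleton.elim a b⟩
    (fun _ => Finset.mem_singleton_self _) (fun _ => Finset.mem_singleton_self _) x y
  refine ⟨⟨g, hstab ▸ (show g ∈ fixer {pt 23} from ⟨hg, fun a ha => ?_⟩)⟩, hxy⟩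
  rw [Finset.mem_singleton] at ha; subst ha
  exact hf 0

theorem aut22 {α : Type*} [Fintype α] [DecidableEq α] (hα : Fintype.card α = 22) {B : Set (Finset α)}
    (hB : IsSteinerSystem 3 6 B) :
    Nat.card (setSystemAut B) = 887040 ∧ MulAction.IsMultiplyPretransitive (setSystemAut B) α 3 ∧
      ∃ H : Subgroup (setSystemAut B), H.index = 2 ∧ Nonempty (fixer pair ≃* H) := by
  classical
  have hF : (toF 24 Fam.S22.fm).card = 2 := by decide +kernel
  obtain ⟨hne, hcard, -⟩ := pair_check
  obtain ⟨ι, hι⟩ := Derived.exists_emb (α := α) Fam.S22.fm (by omega)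
  obtain ⟨e0, he0⟩ := Derived.model ι hι Fam.S22.good_nil (Derived.fam22 hα hB _ hF ι hι)
  obtain ⟨e, he⟩ := to_golay (F := pair) (by rw [image_toF]; exact fm_sets.2) std22 e0 he0
  let ψ : stab pair ≃* setSystemAut B := (MulEquiv.ofBijective (resAut _) two_aut).trans (autEquiv e he).symm
  have hle : fixer pair ≤ stab pair := fun g hg => ⟨hg.1, by
    show pair.image g = pair
    rw [Finset.image_congr (g := id) (fun q hq => hg.2 q hq), Finset.image_id]⟩
  let d : Fin 2 ↪ GolayPt := ⟨![pt 22, pt 23], fun a b h => by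
    fin_cases a <;> fin_cases b <;> first | rfl | exact absurd h hne | exact absurd h.symm hne⟩
  let d' : Fin 2 ↪ GolayPt := ⟨![pt 23, pt 22], fun a b h => by
    fin_cases a <;> fin_cases b <;> first | rfl | exact absurd h hne | exact absurd h.symm hne⟩
  have hd : ∀ i, d i ∈ pair := Fin.forall_fin_two.2 ⟨Finset.mem_insert_self _ _, Finset.mem_insert_of_mem (Finset.mem_singleton_self _)⟩
  have hd' : ∀ i, d' i ∈ pair := Fin.forall_fin_two.2 ⟨Finset.mem_insert_of_mem (Finset.mem_singleton_self _), Finset.mem_insert_self _ _⟩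
  have mem_fix : ∀ g : Equiv.Perm GolayPt, g ∈ M24 → g (pt 22) = pt 22 → g (pt 23) = pt 23 → g ∈ fixer pair :=
    fun g hg h1 h2 => ⟨hg, fun a ha => by
      rcases Finset.mem_insert.1 ha with rfl | ha
      · exact h1
      · rw [Finset.mem_singleton.1 ha]; exact h2⟩
  have hex : ∀ z z' : Fin 3 ↪ {p : GolayPt // p ∉ pair}, ∃ g ∈ fixer pair, ∀ i, g (z i : GolayPt) = z' i := by
    intro z z'
    obtain ⟨g, hg, hxy, hf⟩ := lift_five (F := pair) (k := 3) (r := 2) rfl d d hd hd z z'
    exact ⟨g, mem_fix g hg (hf 0) (hf 1), hxy⟩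
  have hout : 3 ≤ Fintype.card {p : GolayPt // p ∉ pair} := by
    rw [Fintype.card_subtype_compl, Fintype.card_coe, hcard, show Fintype.card GolayPt = 24 from rfl]; norm_num
  obtain ⟨z⟩ : Nonempty (Fin 3 ↪ {p : GolayPt // p ∉ pair}) :=
    Function.Embedding.nonempty_of_card_le (by simpa using hout)
  obtain ⟨σ, hσ, -, hσd⟩ := lift_five (F := pair) (k := 3) (r := 2) rfl d d' hd hd' z z
  have hσ22 : σ (pt 22) = pt 23 := hσd 0
  have hσ23 : σ (pt 23) = pt 22 := hσd 1
  have hσs : σ ∈ stab pair := ⟨hσ, by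
    show pair.image σ = pair
    rw [pair, Finset.image_insert, Finset.image_singleton, hσ22, hσ23, Finset.pair_comm]⟩
  set K := (fixer pair).subgroupOf (stab pair) with hK
  have hKcard : Nat.card K = 443520 := by
    rw [Nat.card_congr (Subgroup.subgroupOfEquivOfLe hle).toEquiv, card_fixer (by rw [hcard]; norm_num), hcard]
    exact card_lev.2.2.2.2.2.1
  have hpair : ∀ g ∈ stab pair, g (pt 22) = pt 22 ∧ g (pt 23) = pt 23 ∨ g (pt 22) = pt 23 ∧ g (pt 23) = pt 22 := by
    intro g hg
    have hgF : g • pair = pair := hg.2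
    have h22 : g (pt 22) ∈ pair := by rw [← hgF]; exact Finset.smul_mem_smul_finset (Finset.mem_insert_self _ _)
    have h23 : g (pt 23) ∈ pair := by
      rw [← hgF]; exact Finset.smul_mem_smul_finset (Finset.mem_insert_of_mem (Finset.mem_singleton_self _))
    simp only [pair, Finset.mem_insert, Finset.mem_singleton] at h22 h23
    rcases h22 with a | a <;> rcases h23 with b | b
    · exact absurd (g.injective (a.trans b.symm)) hne
    · exact Or.inl ⟨a, b⟩
    · exact Or.inr ⟨a, b⟩
    · exact absurd (g.injective (a.trans b.symm)) hne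
  have hindex : K.index = 2 := by
    rw [Subgroup.index_eq_two_iff]
    refine ⟨⟨σ, hσs⟩, fun g => ?_⟩
    have hiff : ∀ u : stab pair, u ∈ K ↔ (u : Equiv.Perm GolayPt) (pt 22) = pt 22 := fun u => by
      rw [hK, Subgroup.mem_subgroupOf]
      refine ⟨fun h => h.2 _ (Finset.mem_insert_self _ _), fun h => ?_⟩
      rcases hpair u u.2 with ⟨a, b⟩ | ⟨a, b⟩
      · exact mem_fix _ u.2.1 a b
      · exact absurd (h.symm.trans a) hne
    rw [hiff, hiff]
    rcases hpair g g.2 with ⟨a, b⟩ | ⟨a, b⟩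
    · refine Or.inr ⟨a, ?_⟩
      show (g : Equiv.Perm GolayPt) (σ (pt 22)) ≠ pt 22
      rw [hσ22, b]; exact hne.symm
    · refine Or.inl ⟨?_, fun h => hne (h.symm.trans a)⟩
      show (g : Equiv.Perm GolayPt) (σ (pt 22)) = pt 22
      rw [hσ22, b]
  refine ⟨?_, transitive_of e he two_aut fun x y => ?_, K.map ψ.toMonoidHom, ?_, ⟨?_⟩⟩
  · rw [← Nat.card_congr ψ.toEquiv, ← K.index_mul_card, hindex, hKcard]
  · obtain ⟨g, hg, hxy⟩ := hex x y
    exact ⟨⟨g, hle hg⟩, hxy⟩
  · rw [Subgroup.index_map_of_bijective ψ.bijective, hindex]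
  · exact (Subgroup.subgroupOfEquivOfLe hle).symm.trans (K.equivMapOfInjective _ ψ.injective)

end Cfsg.Lib.SteinerCert.PunctureGroups
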