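import Cfsg.Agent.Lib.SteinerCert.Rigid

/-! The two small Mathieu groups as automorphism groups of the standard systems. -/

set_option autoImplicit false
set_option maxRecDepth 100000

namespace Cfsg.Lib.SteinerCert

open Finset Cfsg Cfsg.Lib.Golay Cfsg.Lib.Golay.Chain Cfsg.Lib.Golay.Quartets
open scoped Pointwise

theorem toSet_imgMask {n : ℕ} {l : List ℕ} (hl : l.length = n) (hlt : ∀ i ∈ l, i < 24) (f : Fin n ↪ GolayPt)
    (hf : ∀ i, f i = pt (l.getD i.val 0)) (b : ℕ) : toSet (imgMask l b) = (toF n b).map f := by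
  ext p
  rw [mem_toSet, testBit_imgMask, Finset.mem_map]
  constructor
  · rintro ⟨i, hi, hb, e⟩
    exact ⟨⟨i, hl ▸ hi⟩, mem_toF.2 hb, by rw [hf]; show pt (l.getD i 0) = p; rw [e, pt_idx]⟩
  · rintro ⟨i, hi, rfl⟩
    refine ⟨i.val, hl.symm ▸ i.isLt, mem_toF.1 hi, ?_⟩
    rw [hf, idx_pt]
    rw [List.getD_eq_getElem _ _ (hl.symm ▸ i.isLt)]
    exact hlt _ (List.getElem_mem _)

theorem idx_lists : dodIdx.length = 12 ∧ restIdx.length = 11 ∧ (dodIdx.all fun i => decide (i < 24)) = true ∧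
    (restIdx.all fun i => decide (i < 24)) = true ∧ dodIdx.Nodup ∧ restIdx.Nodup := by decide +kernel

/-- The embedding of an index list. -/
def embOf (n : ℕ) (l : List ℕ) (hl : l.length = n) (hlt : (l.all fun i => decide (i < 24)) = true) (hnd : l.Nodup) :
    Fin n ↪ GolayPt where
  toFun i := pt (l.getD i.val 0)
  inj' i j h := by
    simp only [List.all_eq_true, decide_eq_true_eq] at hlt
    have hi : i.val < l.length := hl.symm ▸ i.isLt
    have hj : j.val < l.length := hl.symm ▸ j.isLt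
    simp only [List.getD_eq_getElem _ _ hi, List.getD_eq_getElem _ _ hj] at h
    have h' := congrArg idx h
    rw [idx_pt (hlt _ (List.getElem_mem _)), idx_pt (hlt _ (List.getElem_mem _))] at h'
    exact Fin.ext ((hnd.getElem_inj_iff).1 h')

/-- The points of the system of degree 12. -/
def f12 : Fin 12 ↪ GolayPt := embOf 12 dodIdx idx_lists.1 idx_lists.2.2.1 idx_lists.2.2.2.2.1

/-- The points of the system of degree 11. -/
def f11 : Fin 11 ↪ GolayPt := embOf 11 restIdx idx_lists.2.1 idx_lists.2.2.2.1 idx_lists.2.2.2.2.2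

theorem range_embOf {n : ℕ} {l : List ℕ} (hl : l.length = n) (hlt hnd) (p : GolayPt) :
    p ∈ ptSet l ↔ ∃ i, embOf n l hl hlt hnd i = p := by
  simp only [ptSet, List.mem_toFinset, List.mem_map]
  constructor
  · rintro ⟨a, ha, rfl⟩
    obtain ⟨i, hi, rfl⟩ := List.getElem_of_mem ha
    exact ⟨⟨i, hl ▸ hi⟩, by show pt (l.getD i 0) = _; rw [List.getD_eq_getElem _ _ hi]⟩
  · rintro ⟨i, rfl⟩
    refine ⟨_, ?_, rfl⟩
    rw [List.getD_eq_getElem _ _ (hl.symm ▸ i.isLt)]
    exact List.getElem_mem _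

theorem dict12 : (twelveStd.all fun b => decide (imgMask dodIdx b < 2 ^ 24) && hexL.contains (imgMask dodIdx b)) = true ∧
    (hexL.all fun m => twelveStd.any fun b => imgMask dodIdx b == m) = true ∧
    (hexL.all fun m => decide (m < 2 ^ 24)) = true := by decide +kernel

theorem dict11 : (elevenStd.all fun b => decide (2 ^ dodPt ||| imgMask restIdx b < 2 ^ 24) &&
      hexL.contains (2 ^ dodPt ||| imgMask restIdx b)) = true ∧
    (hexL.all fun m => !m.testBit dodPt || elevenStd.any fun b => (2 ^ dodPt ||| imgMask restIdx b) == m) = true ∧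
    dodPt ∉ restIdx := by decide +kernel

theorem exists_mask {h : Finset GolayPt} (hh : h ∈ hexadsOn (toSet baseDod)) : ∃ m ∈ hexL, toSet m = h := by
  have hlt : setNat h < 2 ^ 24 := by unfold setNat; exact Nat.ofBits_lt_two_pow _
  refine ⟨setNat h, List.contains_iff_mem.1 ((mem_hexL hlt).1 (by rw [toSet_setNat]; exact hh)), toSet_setNat h⟩

theorem toSet_two_pow_or {p : ℕ} (hp : p < 24) (a : ℕ) : toSet (2 ^ p ||| a) = insert (pt p) (toSet a) := by
  ext q
  rw [mem_toSet, Finset.mem_insert, mem_toSet, Nat.testBit_or, Nat.testBit_two_pow, Bool.or_eq_true, decide_eq_true_eq]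
  constructor
  · rintro (h | h)
    · left; rw [h, pt_idx]
    · exact Or.inr h
  · rintro (h | h)
    · left; rw [h, idx_pt hp]
    · exact Or.inr h

theorem chain11_trans (x y : Fin 4 ↪ GolayPt) (hx : ∀ i, x i ∈ ptSet restIdx) (hy : ∀ i, y i ∈ ptSet restIdx) :
    ∃ g ∈ G11, ∀ i, g (x i) = y i := by
  obtain ⟨g, hg, h⟩ := exists_map inEleven_spec inv11 chain11 (show elevenData.length = 4 from rfl) x y hx hy
  exact ⟨g, Subgroup.commutator_le.2 (fun a ha c hc =>
    G11.mul_mem (G11.mul_mem (G11.mul_mem ha hc) (G11.inv_mem ha)) (G11.inv_mem hc)) hg, h⟩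

theorem twelve : Nonempty (G12 ≃* setSystemAut (sysOf 12 twelveStd)) ∧
    (∀ x y : Fin 5 ↪ Fin 12, ∃ π ∈ setSystemAut (sysOf 12 twelveStd), ∀ i, π (x i) = y i) ∧
    ∀ π ∈ setSystemAut (sysOf 12 twelveStd), ∀ x : Fin 5 ↪ Fin 12, (∀ i, π (x i) = x i) → π = 1 := by
  obtain ⟨d1, d2, d3⟩ := dict12
  simp only [List.all_eq_true, Bool.and_eq_true, decide_eq_true_eq, List.any_eq_true, beq_iff_eq] at d1 d2 d3
  have him : ∀ b, toSet (imgMask dodIdx b) = (toF 12 b).map f12 := fun b =>
    toSet_imgMask idx_lists.1 (by simpa using idx_lists.2.2.1) f12 (fun i => rfl) b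
  have hrange : ∀ p, p ∈ toSet baseDod ↔ ∃ i, f12 i = p := fun p => by
    rw [← ptSet_dod]; exact range_embOf _ _ _ p
  refine model (by norm_num) twelve_rigid.2 twelve_rigid.1 G12 f12 (fun s => s ∈ hexadsOn (toSet baseDod))
    (fun g hg s hs => ?_) (fun s => ⟨fun hs => ?_, ?_⟩) (fun g hg i => ?_) (fun g hg h => ?_) (fun x y => ?_)
  · have h := hexadsOn_smul hg.1 hs
    rw [show g • toSet baseDod = toSet baseDod from hg.2] at h
    convert h using 1
    rfl
  · obtain ⟨m, hm, hms⟩ := exists_mask hs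
    obtain ⟨b, hb, rfl⟩ := d2 m hm
    exact ⟨b, hb, Finset.map_injective f12 ((him b).symm.trans hms)⟩
  · rintro ⟨b, hb, rfl⟩
    rw [← him]
    exact (mem_hexL (d1 b hb).1).2 (d1 b hb).2
  · obtain ⟨j, hj⟩ := (hrange _).1 (inv12 g hg (f12 i) (by rw [ptSet_dod]; exact (hrange _).2 ⟨i, rfl⟩) |>
      (fun h => by rwa [ptSet_dod] at h))
    exact ⟨j, hj.symm⟩
  · refine faithful12 g hg fun p hp => ?_
    obtain ⟨i, rfl⟩ := (hrange p).1 hp
    exact h i
  · exact trans12 le_rfl (x.trans f12) (y.trans f12) (fun i => (hrange _).2 ⟨x i, rfl⟩) (fun i => (hrange _).2 ⟨y i, rfl⟩)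

theorem eleven : Nonempty (G11 ≃* setSystemAut (sysOf 11 elevenStd)) ∧
    (∀ x y : Fin 4 ↪ Fin 11, ∃ π ∈ setSystemAut (sysOf 11 elevenStd), ∀ i, π (x i) = y i) ∧
    ∀ π ∈ setSystemAut (sysOf 11 elevenStd), ∀ x : Fin 4 ↪ Fin 11, (∀ i, π (x i) = x i) → π = 1 := by
  obtain ⟨d1, d2, d4⟩ := dict11
  simp only [List.all_eq_true, Bool.and_eq_true, decide_eq_true_eq, List.any_eq_true, beq_iff_eq, Bool.or_eq_true,
    Bool.not_eq_true'] at d1 d2
  have him : ∀ b, toSet (2 ^ dodPt ||| imgMask restIdx b) = insert (pt dodPt) ((toF 11 b).map f11) := fun b => by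
    rw [toSet_two_pow_or dodPt_lt, toSet_imgMask idx_lists.2.1 (by simpa using idx_lists.2.2.2.1) f11 (fun i => rfl) b]
  have hrange : ∀ p, p ∈ ptSet restIdx ↔ ∃ i, f11 i = p := fun p => range_embOf _ _ _ p
  have hnot : ∀ s : Finset (Fin 11), pt dodPt ∉ s.map f11 := fun s h => by
    obtain ⟨i, -, hi⟩ := Finset.mem_map.1 h
    have := (hrange _).2 ⟨i, hi⟩
    rw [ptSet_rest] at this
    exact Finset.notMem_erase _ _ this
  refine model (by norm_num) eleven_rigid.2 eleven_rigid.1 G11 f11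
    (fun s => insert (pt dodPt) s ∈ hexadsOn (toSet baseDod))
    (fun g hg s hs => ?_) (fun s => ⟨fun hs => ?_, ?_⟩) (fun g hg i => ?_) (fun g hg h => ?_) (fun x y => ?_)
  · obtain ⟨hg12, hgp⟩ := Subgroup.mem_inf.1 hg
    have h := hexadsOn_smul (Subgroup.mem_inf.1 hg12).1 hs
    rw [show g • toSet baseDod = toSet baseDod from (Subgroup.mem_inf.1 hg12).2] at h
    convert h using 1
    rw [Finset.smul_finset_def, Finset.image_insert]
    congr 1
    exact hgp.symm
  · obtain ⟨m, hm, hms⟩ := exists_mask hs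
    rcases d2 m hm with hbit | ⟨b, hb, rfl⟩
    · exfalso
      have : pt dodPt ∈ toSet m := by rw [hms]; exact Finset.mem_insert_self _ _
      rw [mem_toSet, idx_pt dodPt_lt, hbit] at this
      exact Bool.false_ne_true this
    · refine ⟨b, hb, Finset.map_injective f11 ?_⟩
      have h2 := congrArg (fun u => u.erase (pt dodPt)) ((him b).symm.trans hms)
      simpa [Finset.erase_insert, hnot] using h2
  · rintro ⟨b, hb, rfl⟩
    show insert (pt dodPt) _ ∈ _
    rw [← him]
    exact (mem_hexL (d1 b hb).1).2 (d1 b hb).2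
  · obtain ⟨j, hj⟩ := (hrange _).1 (inv11 g hg (f11 i) ((hrange _).2 ⟨i, rfl⟩))
    exact ⟨j, hj.symm⟩
  · refine faithful11 g hg fun p hp => ?_
    obtain ⟨i, rfl⟩ := (hrange p).1 hp
    exact h i
  · exact chain11_trans (x.trans f11) (y.trans f11) (fun i => (hrange _).2 ⟨x i, rfl⟩) (fun i => (hrange _).2 ⟨y i, rfl⟩)

theorem unique_twelve {α : Type*} [Fintype α] [DecidableEq α] (hα : Fintype.card α = 12) {B : Set (Finset α)}
    (hB : IsSteinerSystem 5 6 B) : ∃ e : α ≃ Fin 12, (fun b => b.image e) '' B = sysOf 12 twelveStd :=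
  unique (N := 132) (distinct_spec twelve_ok.2.1) twelve_ok.2.2 (by decide) twelve_ok.1 hα hB

theorem unique_eleven {α : Type*} [Fintype α] [DecidableEq α] (hα : Fintype.card α = 11) {B : Set (Finset α)}
    (hB : IsSteinerSystem 4 5 B) : ∃ e : α ≃ Fin 11, (fun b => b.image e) '' B = sysOf 11 elevenStd :=
  unique (N := 66) (distinct_spec eleven_ok.2.1) eleven_ok.2.2 (by decide) eleven_ok.1 hα hB

theorem iso_of_unique {α β : Type*} [DecidableEq α] [DecidableEq β] {n : ℕ} {std : List ℕ} {B : Set (Finset α)}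
    {B' : Set (Finset β)} (e : α ≃ Fin n) (he : (fun b => b.image e) '' B = sysOf n std) (e' : β ≃ Fin n)
    (he' : (fun b => b.image e') '' B' = sysOf n std) : SetSystemIso B B' := by
  refine ⟨e.trans e'.symm, ?_⟩
  have h1 : (fun b : Finset α => b.image (e.trans e'.symm)) '' B =
      (fun c : Finset (Fin n) => c.image e'.symm) '' ((fun b : Finset α => b.image e) '' B) := by
    rw [Set.image_image]
    exact Set.image_congr fun b _ => by rw [Finset.image_image]; rfl
  rw [h1, he, ← he', Set.image_image]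
  simp [Finset.image_image]

end Cfsg.Lib.SteinerCert
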