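import Cfsg.Agent.Lib.SteinerCert.Data
import Cfsg.Agent.Lib.Golay.DodGroups
import Cfsg.Agent.Lib.Golay.Quartets

/-! Automorphism groups of the small Steiner systems. -/

set_option autoImplicit false
set_option maxRecDepth 100000

namespace Cfsg.Lib.SteinerCert

open Finset Cfsg Cfsg.Lib.Golay
open scoped Pointwise

variable {n : ℕ}

/-- The image mask of a mask under the map given by a list. -/
def imgMask : List ℕ → ℕ → ℕ
  | [], _ => 0
  | y :: ys, b => (if b % 2 = 1 then 2 ^ y else 0) ||| imgMask ys (b / 2)

theorem testBit_imgMask : ∀ (l : List ℕ) (b j : ℕ),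
    (imgMask l b).testBit j = true ↔ ∃ i, i < l.length ∧ b.testBit i = true ∧ l.getD i 0 = j
  | [], b, j => by simp [imgMask]
  | y :: ys, b, j => by
    rw [imgMask, Nat.testBit_or, Bool.or_eq_true, testBit_imgMask ys (b / 2) j]
    constructor
    · rintro (h | ⟨i, hi, hb, e⟩)
      · by_cases hb : b % 2 = 1
        · rw [if_pos hb, Nat.testBit_two_pow, decide_eq_true_eq] at h
          exact ⟨0, by simp, by simp [Nat.testBit_zero, hb], by simp [h]⟩
        · simp [hb] at h
      · exact ⟨i + 1, by simpa using hi, by rw [Nat.testBit_succ]; exact hb, by simpa using e⟩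
    · rintro ⟨i, hi, hb, e⟩
      cases i with
      | zero =>
        left
        simp [Nat.testBit_zero] at hb e
        simp [hb, e]
      | succ i =>
        right
        exact ⟨i, by simpa using hi, by rwa [Nat.testBit_succ] at hb, by simpa using e⟩

/-- Blocks inside the assigned points map to blocks. -/
def consistent (std : List ℕ) (pre : List ℕ) : Bool :=
  (std.filter fun b => decide (b < 2 ^ pre.length) && decide (2 ^ (pre.length - 1) ≤ b)).all fun b =>
    std.contains (imgMask pre b)

/-- Every extension of the assigned points is the identity. -/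
def rigid (n : ℕ) (std : List ℕ) : ℕ → List ℕ → Bool
  | 0, pre => decide (pre = List.range n)
  | k + 1, pre => (List.range n).all fun y =>
      pre.contains y || !(consistent std (pre ++ [y])) || rigid n std k (pre ++ [y])

/-- The images of the first `m` points. -/
def preOf (π : Equiv.Perm (Fin n)) (m : ℕ) : List ℕ :=
  (List.range m).map fun i => if h : i < n then (π ⟨i, h⟩).val else 0

theorem preOf_getD (π : Equiv.Perm (Fin n)) {m i : ℕ} (hi : i < m) (hn : i < n) :
    (preOf π m).getD i 0 = (π ⟨i, hn⟩).val := by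
  rw [List.getD_eq_getElem _ _ (by simpa [preOf] using hi)]
  simp [preOf, hn]

theorem rigid_sound {std : List ℕ} (hlt : ∀ b ∈ std, b < 2 ^ n) (π : Equiv.Perm (Fin n))
    (hπ : ∀ b ∈ std, (toF n b).image π ∈ sysOf n std) :
    ∀ k m : ℕ, m + k = n → rigid n std k (preOf π m) = true → π = 1
  | 0, m, hm, h => by
    simp only [rigid, decide_eq_true_eq] at h
    obtain rfl : m = n := by omega
    refine Equiv.ext fun i => Fin.ext ?_
    have := preOf_getD π i.isLt i.isLt
    rw [h, List.getD_eq_getElem _ _ (by simp), List.getElem_range] at this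
    exact this.symm
  | k + 1, m, hm, h => by
    simp only [rigid, List.all_eq_true, List.mem_range] at h
    have hmn : m < n := by omega
    have h' := h (π ⟨m, hmn⟩).val (π ⟨m, hmn⟩).isLt
    have happ : preOf π m ++ [(π ⟨m, hmn⟩).val] = preOf π (m + 1) := by
      simp [preOf, List.range_succ, hmn]
    rw [happ, Bool.or_eq_true, Bool.or_eq_true] at h'
    rcases h' with (h1 | h1) | h1
    · exfalso
      rw [List.contains_iff_mem] at h1
      simp only [preOf, List.mem_map, List.mem_range] at h1
      obtain ⟨i, hi, he⟩ := h1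
      rw [dif_pos (by omega : i < n)] at he
      have := congrArg Fin.val (π.injective (Fin.ext he))
      simp at this; omega
    · exfalso
      have hc : consistent std (preOf π (m + 1)) = true := by
        simp only [consistent, List.all_eq_true, List.mem_filter, Bool.and_eq_true, decide_eq_true_eq]
        rintro b ⟨hb, hblt, -⟩
        have hlen : (preOf π (m + 1)).length = m + 1 := by simp [preOf]
        rw [hlen] at hblt
        obtain ⟨c, hc, hce⟩ := hπ b hb
        rw [List.contains_iff_mem]
        have hbit : ∀ i, b.testBit i = true → i < m + 1 := fun i hi => by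
          by_contra hge
          rw [Nat.testBit_lt_two_pow (hblt.trans_le (Nat.pow_le_pow_right two_pos (not_lt.1 hge)))] at hi
          exact Bool.false_ne_true hi
        have he : imgMask (preOf π (m + 1)) b = c := by
          refine Nat.eq_of_testBit_eq fun j => Bool.eq_iff_iff.2 ?_
          rw [testBit_imgMask]
          constructor
          · rintro ⟨i, hi, hbi, e⟩
            have hin : i < n := by have := hbit i hbi; omega
            rw [preOf_getD π (hbit i hbi) hin] at e
            have : π ⟨i, hin⟩ ∈ toF n c := hce ▸ Finset.mem_image_of_mem _ (mem_toF.2 hbi)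
            rw [← e]; exact mem_toF.1 this
          · intro hj
            have hjn : j < n := by
              by_contra hge
              rw [Nat.testBit_lt_two_pow ((hlt c hc).trans_le (Nat.pow_le_pow_right two_pos (not_lt.1 hge)))] at hj
              exact Bool.false_ne_true hj
            have : (⟨j, hjn⟩ : Fin n) ∈ (toF n b).image π := hce ▸ mem_toF.2 hj
            obtain ⟨i, hi, hij⟩ := Finset.mem_image.1 this
            have hbi := mem_toF.1 hi
            exact ⟨i.val, by rw [hlen]; exact hbit _ hbi, hbi, by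
              rw [preOf_getD π (hbit _ hbi) i.isLt, Fin.eta, hij]⟩
        rw [he]; exact hc
      rw [hc] at h1
      exact Bool.false_ne_true h1
    · exact rigid_sound hlt π hπ k (m + 1) (by omega) h1

theorem eleven_rigid : rigid 11 elevenStd 7 (List.range 4) = true ∧ (elevenStd.all fun b => decide (b < 2 ^ 11)) = true := by
  decide +kernel

theorem twelve_rigid : rigid 12 twelveStd 7 (List.range 5) = true ∧ (twelveStd.all fun b => decide (b < 2 ^ 12)) = true := by
  decide +kernel

/-- The group of a system determined by an action on the points of the Golay code. -/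
theorem model {t : ℕ} (ht : t ≤ n) {std : List ℕ} (hlt : (std.all fun b => decide (b < 2 ^ n)) = true)
    (hrig : rigid n std (n - t) (List.range t) = true) (G : Subgroup (Equiv.Perm GolayPt)) (f : Fin n ↪ GolayPt)
    (P : Finset GolayPt → Prop) (hP : ∀ g ∈ G, ∀ s, P s → P (s.image g))
    (hstd : ∀ s : Finset (Fin n), P (s.map f) ↔ s ∈ sysOf n std)
    (hinv : ∀ g ∈ G, ∀ i, ∃ j, g (f i) = f j) (hfaith : ∀ g ∈ G, (∀ i, g (f i) = f i) → g = 1)
    (htr : ∀ x y : Fin t ↪ Fin n, ∃ g ∈ G, ∀ i, g (f (x i)) = f (y i)) :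
    Nonempty (G ≃* setSystemAut (sysOf n std)) ∧
    (∀ x y : Fin t ↪ Fin n, ∃ π ∈ setSystemAut (sysOf n std), ∀ i, π (x i) = y i) ∧
    ∀ π ∈ setSystemAut (sysOf n std), ∀ x : Fin t ↪ Fin n, (∀ i, π (x i) = x i) → π = 1 := by
  classical
  simp only [List.all_eq_true, decide_eq_true_eq] at hlt
  choose F hF using hinv
  have hFinj : ∀ g hg, Function.Injective (F g hg) := fun g hg i j e =>
    f.injective (g.injective (by rw [hF g hg, hF g hg, e]))
  let r : G → Equiv.Perm (Fin n) := fun g =>
    Equiv.ofBijective (F g.1 g.2) ⟨hFinj _ _, Finite.surjective_of_injective (hFinj _ _)⟩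
  have hr : ∀ (g : G) i, f (r g i) = (g : Equiv.Perm GolayPt) (f i) := fun g i => (hF g.1 g.2 i).symm
  have hmem : ∀ π : Equiv.Perm (Fin n), π ∈ setSystemAut (sysOf n std) ↔ ∀ s ∈ sysOf n std, s.image π ∈ sysOf n std := by
    intro π
    rw [MulAction.mem_stabilizer_iff]
    constructor
    · intro h s hs
      rw [← h]
      exact ⟨s, hs, by ext; simp [Finset.mem_smul_finset]⟩
    · intro h
      refine Set.eq_of_subset_of_ncard_le ?_ ?_ (Set.toFinite _)
      · rintro _ ⟨s, hs, rfl⟩
        convert h s hs using 1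
        ext; simp [Finset.mem_smul_finset]
      · exact le_of_eq (Set.ncard_smul_set _ _).symm
  have hrmem : ∀ g : G, r g ∈ setSystemAut (sysOf n std) := fun g => (hmem _).2 fun s hs => by
    rw [← hstd] at hs ⊢
    convert hP g g.2 _ hs using 1
    rw [Finset.map_eq_image, Finset.map_eq_image, Finset.image_image, Finset.image_image]
    exact Finset.image_congr fun i _ => hr g i
  let φ : G →* setSystemAut (sysOf n std) :=
    { toFun := fun g => ⟨r g, hrmem g⟩
      map_one' := Subtype.ext (Equiv.ext fun i => f.injective (hr 1 i))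
      map_mul' := fun a b => Subtype.ext (Equiv.ext fun i => f.injective (by
        show f (r (a * b) i) = f (r a (r b i))
        rw [hr, hr, hr]; rfl)) }
  have htr' : ∀ x y : Fin t ↪ Fin n, ∃ g : G, ∀ i, r g (x i) = y i := fun x y => by
    obtain ⟨g, hg, he⟩ := htr x y
    exact ⟨⟨g, hg⟩, fun i => f.injective ((hr _ _).trans (he i))⟩
  have hfix : ∀ π ∈ setSystemAut (sysOf n std), ∀ x : Fin t ↪ Fin n, (∀ i, π (x i) = x i) → π = 1 := by
    intro π hπ x hx
    obtain ⟨g, hg⟩ := htr' (Fin.castLEEmb ht) x
    set ρ := (r g)⁻¹ * π * r g with hρ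
    have hρmem : ρ ∈ setSystemAut (sysOf n std) := mul_mem (mul_mem (inv_mem (hrmem g)) hπ) (hrmem g)
    have hρ1 : ρ = 1 := by
      refine rigid_sound hlt ρ (fun b hb => (hmem ρ).1 hρmem _ ⟨b, hb, rfl⟩) (n - t) t (by omega) ?_
      convert hrig using 2
      refine (List.map_congr_left fun i hi => ?_).trans (List.map_id' _)
      have hit : i < t := List.mem_range.1 hi
      rw [dif_pos (show i < n by omega)]
      show (ρ ⟨i, _⟩).val = i
      have e : r g ⟨i, by omega⟩ = x ⟨i, hit⟩ := hg ⟨i, hit⟩
      rw [hρ, Equiv.Perm.mul_apply, Equiv.Perm.mul_apply, e, hx, ← e, Equiv.Perm.coe_inv, Equiv.symm_apply_apply]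
    calc π = r g * ρ * (r g)⁻¹ := by rw [hρ]; group
      _ = 1 := by rw [hρ1]; group
  refine ⟨⟨MulEquiv.ofBijective φ ⟨?_, ?_⟩⟩, fun x y => ?_, hfix⟩
  · rw [injective_iff_map_eq_one]
    intro g hg
    refine Subtype.ext (hfaith g g.2 fun i => ?_)
    rw [← hr g i, show r g = 1 from congrArg Subtype.val hg]; rfl
  · intro π
    obtain ⟨g, hg⟩ := htr' (Fin.castLEEmb ht) ((Fin.castLEEmb ht).trans (π : Equiv.Perm (Fin n)).toEmbedding)
    refine ⟨g, Subtype.ext ?_⟩
    have h := hfix ((π : Equiv.Perm (Fin n))⁻¹ * r g) (mul_mem (inv_mem π.2) (hrmem g)) (Fin.castLEEmb ht) fun i => by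
      rw [Equiv.Perm.mul_apply, hg i]
      exact (π : Equiv.Perm (Fin n)).symm_apply_apply _
    exact (inv_mul_eq_one.1 h).symm
  · obtain ⟨g, hg⟩ := htr' x y
    exact ⟨r g, hrmem g, hg⟩

theorem image_iso {α : Type*} [DecidableEq α] (e : α ≃ Fin n) {B : Set (Finset α)} {std : List ℕ}
    (h : (fun b => b.image e) '' B = sysOf n std) (π : Equiv.Perm α) :
    e.permCongr π ∈ setSystemAut (sysOf n std) ↔ π ∈ setSystemAut B := by
  rw [MulAction.mem_stabilizer_iff, MulAction.mem_stabilizer_iff, ← h]
  have key : e.permCongr π • ((fun b : Finset α => b.image e) '' B) = (fun b : Finset α => b.image e) '' (π • B) := by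
    rw [← Set.image_smul, ← Set.image_smul, Set.image_image, Set.image_image]
    refine Set.image_congr fun b _ => ?_
    rw [Finset.smul_finset_def, Finset.smul_finset_def, Finset.image_image, Finset.image_image]
    exact Finset.image_congr fun i _ => by simp
  rw [key]
  exact (Set.image_injective.2 (Finset.image_injective e.injective)).eq_iff

theorem transfer {t : ℕ} {std : List ℕ} {G : Type*} [Group G] (hiso : Nonempty (G ≃* setSystemAut (sysOf n std)))
    (htr : ∀ x y : Fin t ↪ Fin n, ∃ π ∈ setSystemAut (sysOf n std), ∀ i, π (x i) = y i)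
    (hfix : ∀ π ∈ setSystemAut (sysOf n std), ∀ x : Fin t ↪ Fin n, (∀ i, π (x i) = x i) → π = 1)
    {α : Type*} [DecidableEq α] (e : α ≃ Fin n) {B : Set (Finset α)} (h : (fun b => b.image e) '' B = sysOf n std) :
    Nonempty (G ≃* setSystemAut B) ∧ MulAction.IsMultiplyPretransitive (setSystemAut B) α t ∧
    ∀ x : Fin t ↪ α, MulAction.stabilizer (setSystemAut B) x = ⊥ := by
  let ψ : setSystemAut B ≃* setSystemAut (sysOf n std) :=
    { toFun := fun π => ⟨e.permCongr π, (image_iso e h π).2 π.2⟩
      invFun := fun π => ⟨e.symm.permCongr π, (image_iso e h _).1 (by convert π.2 using 1; ext; simp)⟩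
      left_inv := fun π => by apply Subtype.ext; ext; simp
      right_inv := fun π => by apply Subtype.ext; ext; simp
      map_mul' := fun a b => by apply Subtype.ext; ext; simp }
  obtain ⟨i0⟩ := hiso
  refine ⟨⟨i0.trans ψ.symm⟩, ⟨fun x y => ?_⟩, fun x => ?_⟩
  · obtain ⟨π, hπ, he⟩ := htr (x.trans e.toEmbedding) (y.trans e.toEmbedding)
    refine ⟨ψ.symm ⟨π, hπ⟩, DFunLike.ext _ _ fun i => ?_⟩
    show e.symm (π (e (x i))) = y i
    rw [show π (e (x i)) = e (y i) from he i, e.symm_apply_apply]
  · rw [eq_bot_iff]
    intro g hg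
    have h1 : e.permCongr (g : Equiv.Perm α) = 1 :=
      hfix _ ((image_iso e h g).2 g.2) (x.trans e.toEmbedding) fun i => by
        have hgi : (g : Equiv.Perm α) (x i) = x i := DFunLike.congr_fun hg i
        simp [hgi]
    rw [Subgroup.mem_bot]
    apply Subtype.ext
    ext a
    have := Equiv.ext_iff.1 h1 (e a)
    simpa using this

end Cfsg.Lib.SteinerCert
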